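import Cfsg.Agent.Lib.TC.Tight

/-!
Explicit subgroups, homomorphisms and invariant sets in permutation models.
-/

set_option autoImplicit false

namespace CA.TC
open CA.Fi Equiv

/-- substitution of words for letters -/
def flW (W : List (List ℕ)) (u : List ℕ) : List ℕ := u.flatMap (W.getD · [])

namespace Mod
variable {G : Type*} [Group G] {M : PM} {N : ℕ} {γ : ℕ → G} {ρ : G →* Perm ℕ} (h : Mod M N γ ρ)
include h

theorem ap_inv (w : List ℕ) (p : ℕ) : M.ap w p = ρ (ev γ w)⁻¹ p := by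
  rw [map_inv, h.ρ_ev, PM.ap_eq h.invol]

theorem eqOn_of {u v : List ℕ} (bs : List ℕ) (e : ev γ u = ev γ v) : M.eqOn bs u v = true :=
  allL_iff.2 fun p _ => beq_iff.2 (by rw [h.ap_inv, h.ap_inv, e])

theorem ev_mem_Stb {X : ℕ → Bool} {w : List ℕ} (c : ∀ p < M.n, X (M.ap w p) = X p) :
    ρ (ev γ w) ∈ Stb (X · = true) := by
  rw [← inv_mem_iff, ← map_inv]
  intro p
  rw [← h.ap_inv]
  rcases lt_or_ge p M.n with hp | hp
  · simp only [c p hp]
  · rw [M.ap_ge w hp]

variable [Finite G] {L : List Lv} (hc : M.chain L = true) (hN : N = PM.bound L)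
include hc hN

theorem hom_W {H : Type*} [Group H] {s : ℕ → H} {v : H → List ℕ} {W : List (List ℕ)} {r : ℕ} (h0 : v 1 = [])
    (c : ∀ x, (ev s (v x) = x ∧ ∀ i ∈ v x, i < r) ∧ (M.eqOn (L.map (·.1)) (flW W (v x)) [] = true → x = 1) ∧
      ∀ i < r, M.eqOn (L.map (·.1)) (flW W (v (x * s i))) (flW W (v x ++ [i])) = true) :
    ∃ φ : H →* G, Function.Injective φ ∧ ∀ x, φ x = ev γ (flW W (v x)) := by
  obtain ⟨φ, hφ⟩ := hom_of_words s (fun i => ev γ (W.getD i [])) v r h0 (fun x => (c x).1) fun x i hi => by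
    rw [ev_flatMap, ev_flatMap]; exact h.ev_eq hc hN ((c x).2.2 i hi)
  simp only [ev_flatMap] at hφ
  exact ⟨φ, (injective_iff_map_eq_one φ).2 fun x hx => (c x).2.1 (h.eqOn_of _ ((hφ x).symm.trans hx)), hφ⟩

theorem enum {W U CL : List (List ℕ)} (c0 : [] ∈ U) (c1 : U.map (fun u => (L.map (·.1)).map (M.ap (flW W u))) = CL)
    (c2 : CL.Nodup) (c3 : ∀ u ∈ U, (∀ i ∈ u, i < W.length) ∧
      ∀ i < W.length, (L.map (·.1)).map (M.ap (flW W (u ++ [i]))) ∈ CL) :
    ∃ P : Subgroup G, Nat.card P = U.length ∧ ∀ x, x ∈ P ↔ ∃ u ∈ U, ev γ (flW W u) = x := by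
  classical
  set g := fun i => ev γ (W.getD i [])
  have e : ∀ u, ev γ (flW W u) = ev g u := fun u => (ev_flatMap _ _ _).symm
  have st : ∀ v : List ℕ, (∀ i ∈ v, i < W.length) → ∀ u ∈ U, ∃ w ∈ U, ev g w = ev g u * ev g v := fun v => by
    induction v with
    | nil => exact fun _ u hu => ⟨u, hu, (mul_one _).symm⟩
    | cons i v ih =>
      intro hv u hu
      obtain ⟨w, hw, e1⟩ := List.mem_map.1 (c1 ▸ (c3 u hu).2 i (hv i List.mem_cons_self))
      have e2 := h.ev_eq hc hN (allL_iff.2 fun p hp => beq_iff.2 (List.map_inj_left.1 e1 p hp))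
      obtain ⟨w', hw', e3⟩ := ih (fun j hj => hv j (List.mem_cons_of_mem _ hj)) w hw
      exact ⟨w', hw', by rw [e3, ← e, e2, e, ev_append, ev_cons, ev_cons, ev_nil, mul_one, mul_assoc]⟩
  let S : Submonoid G :=
    { carrier := {x | ∃ u ∈ U, ev γ (flW W u) = x}
      one_mem' := ⟨[], c0, rfl⟩
      mul_mem' := by
        rintro _ _ ⟨u, hu, rfl⟩ ⟨v, hv, rfl⟩
        simp only [e]; exact st v (c3 v hv).1 u hu }
  refine ⟨⟨S, fun {x} hx => Submonoid.powers_le.2 hx (mem_powers_iff_mem_zpowers.2 (inv_mem (Subgroup.mem_zpowers x)))⟩,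
    ?_, fun _ => Iff.rfl⟩
  have nd : (U.map fun u => ev γ (flW W u)).Nodup := List.Nodup.of_map (fun x => (L.map (·.1)).map (ρ x⁻¹)) (by
    rw [List.map_map]
    convert c1 ▸ c2 using 4
    exact List.map_congr_left fun p _ => (h.ap_inv _ p).symm)
  rw [← List.length_map (fun u => ev γ (flW W u)), ← List.toFinset_card_of_nodup nd]
  exact Nat.subtype_card _ fun x => by rw [List.mem_toFinset, List.mem_map]; rfl

end Mod
end CA.TC
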