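import Cfsg.Agent.Lib.TC.Tight
import Cfsg.Agent.Lib.Classical.OrthModel

/-!
Vanishing of first cohomology for groups acting on coded `F₂`-modules, by certificates.
-/

set_option autoImplicit false

namespace CA.TC
open CA.Fi Equiv Cfsg Matrix
open scoped commutatorElement

/-- affine evaluation of a word in derived letters -/
noncomputable def PM.phi (M : PM) (D : List (List ℕ)) (k u p : ℕ) (r : List ℕ) : ℕ :=
  List.rec p (fun j _ x => frc x fun x => Nat.xor (cond' (Nat.beq j k) u 0) (M.ap (nthL [] D j) x)) r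

noncomputable def PM.h1Chk (M : PM) (bs : List ℕ) (D : List (List ℕ)) (St : List (List (List ℕ))) : Bool :=
  an (allN (fun u => cond' (Nat.beq (M.ap (nthL [] D 0) u) u) (Nat.beq u 0) true) M.n)
  (allN (fun k => an (decide (nthL [] D (k + 1) = [k])) (an
    (allL (fun r => an (allL (fun j => Nat.ble j (k + 1)) r) (allL (fun p => Nat.beq (M.phi D 0 0 p r) p) bs)) (nthL [] St k))
    (allN (fun u => cond' (allL (fun r => Nat.beq (M.phi D (k + 1) u 0 r) 0) (nthL [] St k)) (Nat.beq u 0) true) M.n))) M.r)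

variable {G V : Type*} [Group G] [AddCommGroup V] [MulAction G V]

/-- a coded module -/
structure Cod (M : PM) (dec : ℕ → V) (γ : ℕ → G) : Prop where
  invol : M.invol = true
  act : ∀ i, ∀ p < M.n, γ i • dec p = dec (M.T i p)
  bij : Function.Bijective fun p : {p // p < M.n} => dec p
  xor : ∀ a b, dec (a ^^^ b) = dec a + dec b
  xl : ∀ a < M.n, ∀ b < M.n, a ^^^ b < M.n
  add : ∀ (g : G) (u v : V), g • (u + v) = g • u + g • v
  faith : ∀ g : G, (∀ v : V, g • v = v) → g = 1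

namespace Cod
variable {M : PM} {dec : ℕ → V} {γ : ℕ → G} (h : Cod M dec γ)
include h

theorem T_lt (i : ℕ) {p : ℕ} (hp : p < M.n) : M.T i p < M.n :=
  PM.τ_apply h.invol i p ▸ (PM.τ_mem_lt h.invol i p).2 hp
theorem inj {p q : ℕ} (hp : p < M.n) (hq : q < M.n) (e : dec p = dec q) : p = q :=
  congrArg Subtype.val (h.bij.1 (a₁ := ⟨p, hp⟩) (a₂ := ⟨q, hq⟩) e)
theorem surj (v : V) : ∃ p < M.n, dec p = v := let ⟨p, e⟩ := h.bij.2 v; ⟨p.1, p.2, e⟩
theorem zero : dec 0 = 0 := by simpa using h.xor 0 0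

theorem exists_mod : ∃ ρ, Mod M (Nat.card G) γ ρ ∧ ∀ g, ∀ p < M.n, ρ g p < M.n ∧ dec (ρ g p) = g • dec p := by
  let e := (Equiv.ofBijective _ h.bij).symm
  have key : ∀ g : G, ∀ p < M.n, (MulAction.toPerm g).extendDomain e p < M.n ∧
      dec ((MulAction.toPerm g).extendDomain e p) = g • dec p := fun g p hp => by
    rw [Perm.extendDomain_apply_subtype _ e (b := p) hp]
    exact ⟨(e _).2, e.symm_apply_apply _⟩
  refine ⟨(Perm.extendDomainHom e).comp (MulAction.toPermHom G V), ⟨h.invol, (Perm.extendDomainHom_injective e).comp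
    ((injective_iff_map_eq_one _).2 fun g hg => h.faith g fun v => congrArg (fun k : Perm V => k v) hg), fun i => ?_, rfl⟩, key⟩
  ext p
  rw [PM.τ_apply h.invol]
  rcases lt_or_ge p M.n with hp | hp
  · exact h.inj (key _ p hp).1 (h.T_lt i hp) ((key _ p hp).2.trans (h.act i p hp))
  · rw [M.T_ge (Or.inr hp)]; exact Perm.extendDomain_apply_not_subtype _ _ (not_lt.2 hp)

theorem ap (w : List ℕ) {p : ℕ} (hp : p < M.n) : M.ap w p < M.n ∧ (ev γ w)⁻¹ • dec p = dec (M.ap w p) := by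
  obtain ⟨ρ, h1, h2⟩ := h.exists_mod
  have := h2 (ev γ w)⁻¹ p hp
  rw [map_inv, h1.ρ_ev, ← PM.ap_eq h.invol] at this
  exact ⟨this.1, this.2.symm⟩

theorem phi {f : G → V} (hf : ∀ g k, f (g * k) = f g + g • f k) (f1 : f 1 = 0) {D : List (List ℕ)} {k u p : ℕ}
    (hu : u < M.n) (hp : p < M.n) (r : List ℕ) (hr : ∀ j ∈ r, f (ev γ (nthL [] D j))⁻¹ = dec (cond' (Nat.beq j k) u 0)) :
    M.phi D k u p r < M.n ∧ dec (M.phi D k u p r) = f (ev (fun j => (ev γ (nthL [] D j))⁻¹) r) +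
      ev (fun j => (ev γ (nthL [] D j))⁻¹) r • dec p := by
  induction r with
  | nil => exact ⟨hp, by rw [ev_nil, f1, one_smul, zero_add]; rfl⟩
  | cons j r ih =>
    obtain ⟨a1, a2⟩ := ih fun i hi => hr i (List.mem_cons_of_mem _ hi)
    have e : M.phi D k u p (j :: r) = cond' (Nat.beq j k) u 0 ^^^ M.ap (nthL [] D j) (M.phi D k u p r) :=
      frc_eq (M.phi D k u p r) fun x => Nat.xor (cond' (Nat.beq j k) u 0) (M.ap (nthL [] D j) x)
    rw [e, h.xor, ← hr j List.mem_cons_self, ← (h.ap _ a1).2, a2, ev_cons, hf, h.add, mul_smul, add_assoc]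
    refine ⟨h.xl _ ?_ _ (h.ap _ a1).1, rfl⟩
    cases Nat.beq j k
    exacts [Nat.zero_lt_of_lt hu, hu]

theorem h1 [Finite G] {L : List Lv} (hc : M.chain L = true) (hN : Nat.card G = PM.bound L) {D : List (List ℕ)}
    {St : List (List (List ℕ))} (c : M.h1Chk (L.map (·.1)) D St = true) (f : G → V)
    (hf : ∀ g k, f (g * k) = f g + g • f k) : ∃ v : V, ∀ g, f g = g • v - v := by
  obtain ⟨ρ, hM, hρ⟩ := h.exists_mod
  rw [PM.h1Chk, an_iff, allN_iff, allN_iff] at c
  obtain ⟨c1, c2⟩ := c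
  have : Finite V := Finite.of_surjective _ h.bij.2
  have s0 : ∀ g : G, g • (0 : V) = 0 := fun g => by simpa using h.add g 0 0
  have sb : ∀ (g : G) (u v : V), g • (u - v) = g • u - g • v := fun g u v => by
    rw [eq_sub_iff_add_eq, ← h.add, sub_add_cancel]
  set t := (ev γ (nthL [] D 0))⁻¹
  obtain ⟨v, hv⟩ := (Finite.injective_iff_surjective.1 (show Function.Injective fun v : V => t • v - v from
    fun u v e => by
      obtain ⟨p, hp, e2⟩ := h.surj (u - v)
      have e3 : t • dec p = dec p := by rw [e2, sb]; exact sub_eq_sub_iff_sub_eq_sub.1 e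
      have := c1 p hp
      rw [beq_iff.2 (h.inj (h.ap _ hp).1 hp ((h.ap _ hp).2.symm.trans e3))] at this
      rwa [beq_iff.1 this, h.zero, eq_comm, sub_eq_zero] at e2)) (f t)
  set F := fun g => f g - (g • v - v) with hF
  have hF' : ∀ g k, F (g * k) = F g + g • F k := fun g k => by simp only [hF, hf, sb, mul_smul]; abel
  have F1 : F 1 = 0 := by simpa using hF' 1 1
  let K : Subgroup G :=
    { carrier := {g | F g = 0}
      one_mem' := F1
      mul_mem' := fun {a b} ha hb => by change F _ = 0 at *; rw [hF', ha, hb, s0, add_zero]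
      inv_mem' := fun {a} ha => by
        change F _ = 0 at *
        have := hF' a⁻¹ a
        rwa [inv_mul_cancel, F1, ha, s0, add_zero, eq_comm] at this }
  have hD : ∀ k ≤ M.r, (ev γ (nthL [] D k))⁻¹ ∈ K := fun k => by
    induction k using Nat.strong_induction_on with
    | _ k ih =>
    intro hk
    rcases k with _ | k
    · exact sub_eq_zero.2 hv.symm
    have c3 := c2 k hk
    simp only [an_iff, allL_iff, allN_iff, ble_iff, beq_iff] at c3
    obtain ⟨u, hu, e⟩ := h.surj (F (ev γ (nthL [] D (k + 1)))⁻¹)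
    have c4 := c3.2.2 u hu
    rw [allL_iff.2 fun r hr => beq_iff.2 ?_] at c4
    · change F _ = 0
      rw [← e, beq_iff.1 c4, h.zero]
    have h0 := Nat.zero_lt_of_lt hu
    have e1 : ev (fun j => (ev γ (nthL [] D j))⁻¹) r = 1 := hM.base hc hN fun p hp => by
      rcases lt_or_ge p M.n with h1 | h1
      · have := h.phi (f := fun _ => 0) (fun g _ => by rw [s0, add_zero]) rfl (D := D) (k := 0) h0 h1 r
          (fun j _ => by cases Nat.beq j 0 <;> exact h.zero.symm)
        rw [(c3.2.1 r hr).2 p hp, zero_add, ← (hρ _ p h1).2] at this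
        exact h.inj (hρ _ p h1).1 h1 this.2.symm
      · exact (hM.tight (L1 := []) hc hN).2 (Fx [p]) (fun _ _ => ev_mem fun i _ q hq => by
          rw [List.mem_singleton.1 hq, PM.τ_apply h.invol, M.T_ge (Or.inr h1)]) _ (fun _ h => by cases h) p (by simp)
    have := h.phi hF' F1 (D := D) (k := k + 1) hu h0 r fun j hj => by
      rcases ((c3.2.1 r hr).1 j hj).lt_or_eq with h1 | rfl
      · rw [show Nat.beq j (k + 1) = false from Bool.eq_false_iff.2 fun e => h1.ne (beq_iff.1 e)]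
        exact (ih j h1 (by omega)).trans h.zero.symm
      · rw [Nat.beq_refl]; exact e.symm
    rw [e1, F1, one_smul, zero_add] at this
    exact h.inj this.1 h0 this.2
  have hγ : ∀ i, γ i ∈ K := fun i => by
    rcases lt_or_ge i M.r with hi | hi
    · have c3 := of_decide_eq_true (an_iff.1 (c2 i hi)).1
      simpa [c3] using hD (i + 1) hi
    · rw [h.faith (γ i) fun v => by
        obtain ⟨p, hp, rfl⟩ := h.surj v
        rw [h.act i p hp, M.T_ge (Or.inl hi)]]
      exact K.one_mem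
  refine ⟨v, fun g => sub_eq_zero.1 ?_⟩
  obtain ⟨k, hk, e⟩ := (hM.tight (L1 := []) hc hN).2 (K.map ρ) (fun w _ => ⟨_, ev_mem fun i _ => hγ i, hM.ρ_ev w⟩) g
    (fun _ h => by cases h)
  exact hM.inj e ▸ hk

end Cod

section omega
variable {ι : Type} [Fintype ι] [DecidableEq ι]

def btZ (c k : ℕ) : ZMod 2 := cond (c.testBit k) 1 0
def decZ (ix : ι → ℕ) (p : ℕ) : ι → ZMod 2 := fun i => btZ p (ix i)
def matZ (ix : ι → ℕ) (c : ℕ) : Matrix ι ι (ZMod 2) := fun i j => btZ c (8 * ix i + ix j)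

/-- the natural module -/
@[reducible] def actΩ (q : (ι → ZMod 2) → ZMod 2) : MulAction (Omega (ZMod 2) q) (ι → ZMod 2) where
  smul g v := (g.1.1 : Matrix ι ι (ZMod 2)) *ᵥ v
  one_smul := Matrix.one_mulVec
  mul_smul _ _ _ := (Matrix.mulVec_mulVec _ _ _).symm

theorem exists_cod (q : (ι → ZMod 2) → ZMod 2) (ix : ι → ℕ) {M R : PM} (cs : List ℕ) (hM : M.invol = true)
    (hn : M.n = 2 ^ Fintype.card ι)
    (c1 : ∀ j < 2 * M.r, matZ ix (nthL 0 cs j) * matZ ix (nthL 0 cs j) = 1 ∧ ∀ p < M.n, R.T j p < M.n ∧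
      matZ ix (nthL 0 cs j) *ᵥ decZ ix p = decZ ix (R.T j p) ∧ q (decZ ix (R.T j p)) = q (decZ ix p))
    (c2 : ∀ i < M.r, ∀ p < M.n, M.T i p = R.T (2 * i) (R.T (2 * i + 1) (R.T (2 * i) (R.T (2 * i + 1) p))))
    (c3 : ∀ p < M.n, ∑ i, (decZ ix p i).val * 2 ^ ix i = p) :
    letI := actΩ q
    ∃ γ : ℕ → Omega (ZMod 2) q, Cod M (decZ ix) γ := by
  letI := actΩ q
  have bij : Function.Bijective fun p : {p // p < M.n} => decZ ix p := by
    refine (Nat.bijective_iff_injective_and_card _).2 ⟨fun p r e => Subtype.ext ?_, ?_⟩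
    · rw [← c3 _ p.2, ← c3 _ r.2]; exact congrArg (fun v : ι → ZMod 2 => ∑ i, (v i).val * 2 ^ ix i) e
    · rw [← Nat.card_congr (Fin.equivSubtype (n := M.n)), hn]; simp
  let A : ∀ j < 2 * M.r, isometryGroup (ZMod 2) q := fun j hj =>
    ⟨⟨_, _, (c1 j hj).1, (c1 j hj).1⟩, Orth.mem_isometryGroup.2 fun u => by
      obtain ⟨p, rfl⟩ := bij.2 u
      exact (congrArg q ((c1 j hj).2 _ p.2).2.1).trans ((c1 j hj).2 _ p.2).2.2⟩
  refine ⟨fun i => if hi : i < M.r then ⟨⁅A (2 * i) (by omega), A (2 * i + 1) (by omega)⁆,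
    Subgroup.commutator_mem_commutator (Subgroup.mem_top _) (Subgroup.mem_top _)⟩ else 1, hM, fun i p hp => ?_, bij,
    fun a b => funext fun i => ?_, fun a ha b hb => ?_, fun g u v => Matrix.mulVec_add _ _ _, fun g hg => ?_⟩
  · split_ifs with hi
    · have a := (c1 (2 * i) (by omega)).2
      have b := (c1 (2 * i + 1) (by omega)).2
      rw [c2 i hi p hp, ← (a _ (b _ (a _ (b _ hp).1).1).1).2.1, ← (b _ (a _ (b _ hp).1).1).2.1, ← (a _ (b _ hp).1).2.1,
        ← (b _ hp).2.1]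
      simp only [Matrix.mulVec_mulVec, ← mul_assoc]; rfl
    · rw [one_smul, M.T_ge (Or.inl (not_lt.1 hi))]
  · simp only [decZ, btZ, Nat.testBit_xor, Pi.add_apply]
    cases a.testBit (ix i) <;> cases b.testBit (ix i) <;> rfl
  · rw [hn] at *; exact Nat.xor_lt_two_pow ha hb
  · exact Subtype.ext (Subtype.ext (Units.ext (Matrix.ext_of_mulVec_single fun i =>
      (hg _).trans (Matrix.one_mulVec _).symm)))

theorem h1_omega (q : (ι → ZMod 2) → ZMod 2) (ix : ι → ℕ) {M R : PM} (cs : List ℕ) (hM : M.invol = true)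
    (hn : M.n = 2 ^ Fintype.card ι)
    (c1 : ∀ j < 2 * M.r, matZ ix (nthL 0 cs j) * matZ ix (nthL 0 cs j) = 1 ∧ ∀ p < M.n, R.T j p < M.n ∧
      matZ ix (nthL 0 cs j) *ᵥ decZ ix p = decZ ix (R.T j p) ∧ q (decZ ix (R.T j p)) = q (decZ ix p))
    (c2 : ∀ i < M.r, ∀ p < M.n, M.T i p = R.T (2 * i) (R.T (2 * i + 1) (R.T (2 * i) (R.T (2 * i + 1) p))))
    (c3 : ∀ p < M.n, ∑ i, (decZ ix p i).val * 2 ^ ix i = p) {L : List Lv} (hc : M.chain L = true)
    (hN : Nat.card (Omega (ZMod 2) q) = PM.bound L) {D : List (List ℕ)}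
    {St : List (List (List ℕ))} (c : M.h1Chk (L.map (·.1)) D St = true) (f : Omega (ZMod 2) q → ι → ZMod 2)
    (hf : ∀ g k, f (g * k) = f g + (g.1.1 : Matrix ι ι (ZMod 2)) *ᵥ f k) :
    ∃ v, ∀ g, f g = (g.1.1 : Matrix ι ι (ZMod 2)) *ᵥ v - v := by
  letI := actΩ q
  obtain ⟨γ, h⟩ := exists_cod q ix cs hM hn c1 c2 c3
  exact h.h1 hc hN c f hf

end omega

end CA.TC
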