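import Cfsg.Agent.Lib.TC.Word

/-!
The checker for coset enumerations, for generators that need not be involutions: `ι x` is the
letter of the inverse of the letter `x`.
-/

set_option autoImplicit false

namespace CA.TC
open CA.Fi

namespace Cert
variable (C : Cert) (ι : ℕ → ℕ)

/-- the check of one fact -/
noncomputable def fact2 (p x T q k a : ℕ) : Bool :=
  an (lt' q C.n)
  (cond' (Nat.beq k 1) (C.rel T x a p q)
  (cond' (Nat.beq k 3) (Nat.beq (C.step T q (ι x)) (Nat.succ p))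
  (cond' (Nat.beq k 0) (cond' (lt' p q) (C.dfn x p q) (C.dfn (ι x) q p))
  (cond' (Nat.beq k 2) (an (lt' a C.n) (an (Nat.beq (C.nrm T a) p) (Nat.beq (C.step T a x) (Nat.succ q))))
  (cond' (Nat.beq k 4) (C.eps T x a p q)
  (cond' (Nat.beq k 5) (C.eps T x a q p)
  (cond' (Nat.beq k 7) (C.rel T (ι x) a q p)
  ((fun s : List ℕ × ℕ × List ℕ => an (Nat.beq s.2.1 x) (an (Nat.beq (C.walk T s.1 0) (Nat.succ p))
    (Nat.beq (C.walk T s.2.2 0) (Nat.succ q)))) (C.sub a)))))))))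
/-- the check of one coset -/
noncomputable def row2 (p : ℕ) : Bool :=
  an (allN (fun x => frc (C.ent p x) fun e => frc (tm e) fun T => cond' (Nat.beq T 0) true
      (frc (tg e) fun q => frc (kd e) fun k => frc (ag e) fun a => C.fact2 ι p x T q k a)) (Nat.succ C.r))
    (cond' (C.fin p) (allN (fun x => @Nat.rec (fun _ => Bool) false (fun q _ => C.fin q) (C.step 0 p x)) C.r)
      true)
/-- the check of the cosets `a ≤ p < a + m` -/
noncomputable def rows2 (a m : ℕ) : Bool := allN (fun i => frc (Nat.add a i) (C.row2 ι)) m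

section sound
variable {X : Type*} (act : ℕ → X → X) (o : X)

/-- hypotheses on the action -/
structure Hyp2 : Prop where
  n : 0 < C.n
  le : ∀ x, ι x ≤ C.r
  inv : ∀ x z, act x (act (ι x) z) = z
  eps : ∀ z, act C.r z = z
  rot : ∀ a x l, C.rot a = x :: l → (∀ y ∈ l, y ≤ C.r) ∧ ∀ z, wk act l z = act x z
  sub : ∀ a, (∀ y ∈ (C.sub a).1, y ≤ C.r) ∧ (∀ y ∈ (C.sub a).2.2, y ≤ C.r) ∧
    act (C.sub a).2.1 (wk act (C.sub a).1 o) = wk act (C.sub a).2.2 o

variable {C ι act o} (H : C.Hyp2 ι act o) {T : ℕ} (h : C.Ab act o T)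
include H h

theorem nrmF_spec2 (f : ℕ) : ∀ c < C.n, C.nrmF T f c < C.n ∧ C.ρ act o (C.nrmF T f c) = C.ρ act o c := by
  induction f with
  | zero => exact fun c hc => ⟨hc, rfl⟩
  | succ f ih =>
    intro c hc
    have e : C.nrmF T (f + 1) c = frc (C.ent c C.r) fun e =>
      cond' (lt' T (tm e)) (frc (tg e) (C.nrmF T f)) c := rfl
    rw [e, frc_eq, frc_eq]
    cases h1 : lt' T (tm (C.ent c C.r))
    · exact ⟨hc, rfl⟩
    · obtain ⟨h2, h3⟩ := h c hc _ le_rfl (lt'_iff.1 h1)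
      exact ⟨(ih _ h2).1, (ih _ h2).2.trans (h3.trans (H.eps _))⟩

theorem step_spec2 {c x q : ℕ} (hc : c < C.n) (hx : x ≤ C.r) (e : C.step T c x = q + 1) :
    q < C.n ∧ C.ρ act o q = act x (C.ρ act o c) := by
  rw [step, frc_eq, frc_eq] at e
  cases h1 : lt' T (tm (C.ent c x)) <;> rw [h1] at e
  · cases e
  obtain ⟨h2, h3⟩ := h c hc x hx (lt'_iff.1 h1)
  cases h4 : fl (C.ent c x) <;> rw [h4] at e
  · obtain rfl : tg (C.ent c x) = q := Nat.succ.inj e
    exact ⟨h2, h3⟩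
  · obtain rfl : C.nrm T (tg (C.ent c x)) = q := Nat.succ.inj e
    exact ⟨(nrmF_spec2 H h _ _ h2).1, (nrmF_spec2 H h _ _ h2).2.trans h3⟩

theorem walk_spec2 {l : List ℕ} (hl : ∀ y ∈ l, y ≤ C.r) {c q : ℕ} (hc : c < C.n)
    (e : C.walk T l c = q + 1) : C.ρ act o q = wk act l (C.ρ act o c) := by
  induction l generalizing c with
  | nil => obtain rfl : c = q := Nat.succ.inj e; rfl
  | cons x l ih =>
    have e1 : C.walk T (x :: l) c =
      @Nat.rec (fun _ => ℕ) (nat_lit 0) (fun c' _ => C.walk T l c') (C.step T c x) := rfl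
    rw [e1] at e
    cases h1 : C.step T c x with
    | zero => rw [h1] at e; cases e
    | succ c' =>
      rw [h1] at e
      obtain ⟨h2, h3⟩ := step_spec2 H h hc (hl x List.mem_cons_self) h1
      rw [ih (fun y hy => hl y (List.mem_cons_of_mem _ hy)) h2 e, h3]; rfl

theorem rel_spec2 {x a p q : ℕ} (hp : p < C.n) (e : C.rel T x a p q = true) :
    C.ρ act o q = act x (C.ρ act o p) := by
  rw [rel] at e
  cases h1 : C.rot a with
  | nil => rw [h1] at e; cases e
  | cons y l =>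
    rw [h1] at e
    obtain ⟨e1, e2⟩ := an_iff.1 e
    obtain rfl := beq_iff.1 e1
    rw [walk_spec2 H h (H.rot a _ l h1).1 hp (beq_iff.1 e2), (H.rot a _ l h1).2]

theorem eps_spec2 {x a p q : ℕ} (e : C.eps T x a p q = true) :
    x = C.r ∧ C.ρ act o q = C.ρ act o p := by
  simp only [eps, frc_eq, an_iff, beq_iff, lt'_iff, ble_iff] at e
  obtain ⟨e1, e2, e3, e4, e5⟩ := e
  obtain ⟨h1, h2⟩ := nrmF_spec2 H h 40 _ e2
  refine ⟨e1, ?_⟩
  rw [(step_spec2 H h e2 e3 e4).2, (step_spec2 H h h1 e3 e5).2, h2]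

theorem fact_spec2 {p x q k a : ℕ} (hp : p < C.n) (hx : x ≤ C.r) (e : C.fact2 ι p x T q k a = true) :
    q < C.n ∧ C.ρ act o q = act x (C.ρ act o p) := by
  rw [fact2, an_iff, lt'_iff] at e
  obtain ⟨hq, e⟩ := e
  refine ⟨hq, ?_⟩
  have sw : C.ρ act o p = act (ι x) (C.ρ act o q) → C.ρ act o q = act x (C.ρ act o p) := fun e => by
    rw [e, H.inv]
  cases k1 : Nat.beq k 1 <;> rw [k1] at e
  swap; · exact rel_spec2 H h hp e
  cases k3 : Nat.beq k 3 <;> rw [k3] at e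
  swap; · exact sw (step_spec2 H h hq (H.le x) (beq_iff.1 e)).2
  cases k0 : Nat.beq k 0 <;> rw [k0] at e
  swap
  · cases k : lt' p q <;> rw [k] at e
    exacts [sw (dfn_spec e), dfn_spec e]
  cases k2 : Nat.beq k 2 <;> rw [k2] at e
  swap
  · obtain ⟨e1, e2, e3⟩ : a < C.n ∧ C.nrm T a = p ∧ C.step T a x = q + 1 := by
      simpa only [cond', an_iff, lt'_iff, beq_iff] using e
    rw [(step_spec2 H h e1 hx e3).2, ← e2, nrm, (nrmF_spec2 H h 40 _ e1).2]
  cases k4 : Nat.beq k 4 <;> rw [k4] at e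
  swap
  · obtain ⟨e1, e2⟩ := eps_spec2 H h e
    rw [e1, H.eps, e2]
  cases k5 : Nat.beq k 5 <;> rw [k5] at e
  swap
  · obtain ⟨e1, e2⟩ := eps_spec2 H h e
    rw [e1, H.eps, e2]
  cases k7 : Nat.beq k 7 <;> rw [k7] at e
  swap; · exact sw (rel_spec2 H h hq e)
  obtain ⟨e1, e2, e3⟩ : (C.sub a).2.1 = x ∧ C.walk T (C.sub a).1 0 = p + 1 ∧
      C.walk T (C.sub a).2.2 0 = q + 1 := by simpa only [cond', an_iff, beq_iff] using e
  obtain ⟨s1, s2, s3⟩ := H.sub a
  have z : C.ρ act o 0 = o := by rw [ρ_eq, if_neg (Nat.not_lt_zero _)]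
  rw [walk_spec2 H h s1 H.n e2, walk_spec2 H h s2 H.n e3, z, ← e1, s3]

omit h in
theorem ab_all2 (e : ∀ p < C.n, C.row2 ι p = true) (T : ℕ) : C.Ab act o T := by
  have bd : ∀ e, tm e ≤ 4194303 := fun e => Nat.and_le_right
  suffices ∀ j T, 4194303 ≤ T + j → C.Ab act o T from this 4194303 T (by omega)
  intro j
  induction j with
  | zero => exact fun T hT p _ x _ h1 => absurd (bd (C.ent p x)) (by omega)
  | succ j ih =>
    intro T hT p hp x hx h1
    have h2 := allN_iff.1 (an_iff.1 (e p hp)).1 x (Nat.lt_succ_of_le hx)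
    simp only [frc_eq] at h2
    rw [beq_false_iff.2 (by omega)] at h2
    exact fact_spec2 H (ih _ (by omega)) hp hx h2

omit h in
theorem closed2 (e : ∀ p < C.n, C.row2 ι p = true) {p x : ℕ} (hp : p < C.n) (hf : C.fin p = true)
    (hx : x < C.r) : ∃ q < C.n, C.fin q = true ∧ C.ρ act o q = act x (C.ρ act o p) := by
  have h1 := (an_iff.1 (e p hp)).2
  rw [hf] at h1
  have h2 := allN_iff.1 h1 x hx
  cases h3 : C.step 0 p x with
  | zero => rw [h3] at h2; cases h2
  | succ q =>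
    rw [h3] at h2
    obtain ⟨h4, h5⟩ := step_spec2 H (ab_all2 H e 0) hp hx.le h3
    exact ⟨q, h4, h2, h5⟩

end sound
end Cert

/-- the inverse of a word -/
def invW (ι : ℕ → ℕ) (w : List ℕ) : List ℕ := (w.map ι).reverse

/-- the head letter: the identity letter, or the inverse of the first letter -/
def hdW (r : ℕ) (ι : ℕ → ℕ) (b : Bool) (w : List ℕ) : List ℕ :=
  if b then r :: w else match w with
    | [] => []
    | x :: l => ι x :: l

/-- a rotation `(relator, offset, inverted, with identity letter)` -/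
def mkRot2 (r : ℕ) (ι : ℕ → ℕ) (rels : List (List ℕ)) (c : ℕ × ℕ × Bool × Bool) : List ℕ :=
  (fun w : List ℕ => hdW r ι c.2.2.2 (w.drop c.2.1 ++ w.take c.2.1))
    (if c.2.2.1 then invW ι (rels.getD c.1 []) else rels.getD c.1 [])

/-- the word of a subgroup entry, without identity letters -/
def subW2 (r : ℕ) (ι : ℕ → ℕ) (s : List ℕ × ℕ × List ℕ) : List ℕ :=
  (s.1 ++ s.2.1 :: invW ι s.2.2).filter (· ≠ r)

/-- well-formedness of rotations and subgroup entries -/
noncomputable def wfChk2 (r : ℕ) (il : List ℕ) (rels sws : List (List ℕ)) (codes : List (ℕ × ℕ × Bool × Bool))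
    (rots : List (List ℕ)) (subs : List (List ℕ × ℕ × List ℕ)) : Bool :=
  decide (rots = codes.map (mkRot2 r (nthL r il) rels)) && il.all (· ≤ r) && rels.all (·.all (· ≤ r)) &&
    subs.all fun s => s.1.all (· ≤ r) && s.2.2.all (· ≤ r) &&
      (decide (subW2 r (nthL r il) s ∈ sws) || decide (invW (nthL r il) (subW2 r (nthL r il) s) ∈ sws))

section group
variable {Γ : Type*} [Group Γ] {g : ℕ → Γ}

theorem ev_invW {ι : ℕ → ℕ} (hg : ∀ i, g (ι i) = (g i)⁻¹) (w : List ℕ) : ev g (invW ι w) = (ev g w)⁻¹ := by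
  induction w with
  | nil => simp [invW]
  | cons i w ih => simp only [invW] at ih ⊢; simp [ih, hg]

theorem wk_smul2 {X : Type*} [MulAction Γ X] (l : List ℕ) (z : X) :
    Cert.wk (fun x z => (g x)⁻¹ • z) l z = (ev g l)⁻¹ • z := by
  induction l generalizing z with
  | nil => simp [Cert.wk]
  | cons x l ih =>
    have : Cert.wk (fun x z => (g x)⁻¹ • z) (x :: l) z =
      Cert.wk (fun x z => (g x)⁻¹ • z) l ((g x)⁻¹ • z) := rfl
    rw [this, ih]; simp [mul_smul]

variable {r n N : ℕ} {il : List ℕ} {ent : ℕ → ℕ → ℕ} {rels sws : List (List ℕ)}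
  {codes : List (ℕ × ℕ × Bool × Bool)} {rots : List (List ℕ)} {subs : List (List ℕ × ℕ × List ℕ)}

theorem cert_hyp2 (wf : wfChk2 r il rels sws codes rots subs = true) (z1 : 0 < n)
    (hg : ∀ i, g (nthL r il i) = (g i)⁻¹) (hr : g r = 1) (hR : ∀ w ∈ rels, ev g w = 1)
    {H : Subgroup Γ} (hH : ∀ w ∈ sws, ev g w ∈ H) :
    (mkCert r n ent rots subs).Hyp2 (nthL r il) (fun x (z : Γ ⧸ H) => (g x)⁻¹ • z) (1 : Γ) := by
  simp only [wfChk2, Bool.and_eq_true, decide_eq_true_eq, List.all_eq_true, Bool.or_eq_true] at wf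
  obtain ⟨⟨⟨w1, w0⟩, w2⟩, w3⟩ := wf
  have hι : ∀ x, nthL r il x ≤ r := fun x => (nthL_mem r il x).elim (·.le) (w0 _)
  refine ⟨z1, hι, fun x z => by rw [← mul_smul, hg, inv_inv, inv_mul_cancel, one_smul], fun z => by
    change (g r)⁻¹ • z = z; rw [hr, inv_one, one_smul], fun a x l e => ?_, fun a => ?_⟩
  · have h1 : x :: l ∈ rots := by
      rcases nthL_mem [] rots a with h | h
      · exact absurd (e.symm.trans h) (List.cons_ne_nil _ _)
      · exact e ▸ h
    rw [w1] at h1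
    obtain ⟨c, -, h1⟩ := List.mem_map.1 h1
    have h2 : ∀ w : List ℕ, ((∀ y ∈ w, y ≤ r) ∧ ev g w = 1) →
        (∀ y ∈ invW (nthL r il) w, y ≤ r) ∧ ev g (invW (nthL r il) w) = 1 := fun w h =>
      ⟨fun y hy => by
        obtain ⟨z, -, rfl⟩ := List.mem_map.1 (List.mem_reverse.1 hy)
        exact hι z, by rw [ev_invW hg, h.2, inv_one]⟩
    have h3 : (∀ y ∈ rels.getD c.1 [], y ≤ r) ∧ ev g (rels.getD c.1 []) = 1 := by
      rcases lt_or_ge c.1 rels.length with h | h
      · rw [List.getD_eq_getElem _ _ h]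
        exact ⟨w2 _ (List.getElem_mem h), hR _ (List.getElem_mem h)⟩
      · rw [List.getD_eq_default _ _ h]; simp
    have h4 : ∀ w : List ℕ, ((∀ y ∈ w, y ≤ r) ∧ ev g w = 1) →
        (∀ y ∈ w.drop c.2.1 ++ w.take c.2.1, y ≤ r) ∧ ev g (w.drop c.2.1 ++ w.take c.2.1) = 1 := fun w h => by
      refine ⟨fun y hy => ?_, ?_⟩
      · rcases List.mem_append.1 hy with hy | hy
        exacts [h.1 y (List.mem_of_mem_drop hy), h.1 y (List.mem_of_mem_take hy)]
      · have := h.2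
        rw [← List.take_append_drop c.2.1 w, ev_append, mul_eq_one_comm] at this
        rwa [ev_append]
    have h5 : ∀ (b : Bool) (w : List ℕ), ((∀ y ∈ w, y ≤ r) ∧ ev g w = 1) → hdW r (nthL r il) b w = x :: l →
        (∀ y ∈ l, y ≤ r) ∧ ev g l = g x := fun b w h e => by
      cases b
      · cases w with
        | nil => cases e
        | cons y w =>
          obtain ⟨rfl, rfl⟩ := List.cons.inj e
          exact ⟨fun z hz => h.1 z (List.mem_cons_of_mem _ hz), by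
            rw [hg]; exact eq_inv_of_mul_eq_one_right (ev_cons g y w ▸ h.2)⟩
      · obtain ⟨rfl, rfl⟩ := List.cons.inj e
        exact ⟨h.1, h.2.trans hr.symm⟩
    obtain ⟨h6, h7⟩ := h5 _ _ (h4 _ (by cases c.2.2.1; exacts [h3, h2 _ h3])) h1
    exact ⟨h6, fun z => by rw [wk_smul2, h7]⟩
  · change (∀ y ∈ (nthL _ subs a).1, y ≤ r) ∧ (∀ y ∈ (nthL _ subs a).2.2, y ≤ r) ∧
      (g (nthL _ subs a).2.1)⁻¹ • Cert.wk _ (nthL _ subs a).1 _ = Cert.wk _ (nthL _ subs a).2.2 _
    rcases nthL_mem ([], r, []) subs a with h | h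
    · rw [h]; simp [hr, Cert.wk]
    obtain ⟨⟨s1, s2⟩, s3⟩ := w3 _ h
    refine ⟨s1, s2, ?_⟩
    have h1 : ev g (subW2 r (nthL r il) (nthL ([], r, []) subs a)) ∈ H :=
      s3.elim (hH _) fun h => by simpa [ev_invW hg] using hH _ h
    rw [subW2, ev_filter hr, ev_append, ev_cons, ev_invW hg] at h1
    rw [wk_smul2, wk_smul2, ← mul_smul, MulAction.Quotient.smul_mk,
      MulAction.Quotient.smul_mk, QuotientGroup.eq]
    simpa [mul_assoc] using h1

/-- **Coset enumeration**: membership of a word -/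
theorem word_mem2 (wf : wfChk2 r il rels sws codes rots subs = true)
    (e : ∀ p < n, (mkCert r n ent rots subs).row2 (nthL r il) p = true)
    (hg : ∀ i, g (nthL r il i) = (g i)⁻¹) (hr : g r = 1) (hR : ∀ w ∈ rels, ev g w = 1)
    {H : Subgroup Γ} (hH : ∀ w ∈ sws, ev g w ∈ H) {w : List ℕ}
    (hw : (mkCert r n ent rots subs).loop w = true) : ev g w ∈ H := by
  simp only [Cert.loop, an_iff, lt'_iff, allL_iff, ble_iff, beq_iff] at hw
  have hy := cert_hyp2 (ent := ent) wf hw.1 hg hr hR hH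
  have := Cert.walk_spec2 hy (Cert.ab_all2 hy e 0) hw.2.1 hw.1 hw.2.2
  rw [Cert.ρ_eq, if_neg (Nat.not_lt_zero _), wk_smul2, MulAction.Quotient.smul_mk, QuotientGroup.eq] at this
  simpa using this

/-- **Coset enumeration**: the index bound -/
theorem card_le2 (wf : wfChk2 r il rels sws codes rots subs = true)
    (h0 : an (lt' 0 n) (an ((mkCert r n ent rots subs).fin 0)
      (Nat.ble ((mkCert r n ent rots subs).cntF n 0) N)) = true)
    (e : ∀ p < n, (mkCert r n ent rots subs).row2 (nthL r il) p = true)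
    (hg : ∀ i, g (nthL r il i) = (g i)⁻¹) (hr : g r = 1) (hR : ∀ w ∈ rels, ev g w = 1)
    {H K : Subgroup Γ} (hH : ∀ w ∈ sws, ev g w ∈ H) (hK : K ≤ Subgroup.closure (g '' Set.Iio r))
    {m : ℕ} (hm : Finite H ∧ Nat.card H ≤ m) : Finite K ∧ Nat.card K ≤ N * m := by
  set C := mkCert r n ent rots subs
  simp only [an_iff, lt'_iff, ble_iff, Cert.cntF_eq, zero_add] at h0
  obtain ⟨z1, z2, z3⟩ := h0
  have hy : C.Hyp2 (nthL r il) (fun x (z : Γ ⧸ H) => (g x)⁻¹ • z) (1 : Γ) := cert_hyp2 wf z1 hg hr hR hH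
  let S := ((Finset.range n).filter fun p => C.fin p = true)
  let ρ := C.ρ (fun x (z : Γ ⧸ H) => (g x)⁻¹ • z) (1 : Γ)
  have c1 : ∀ x ≤ r, ∀ p ∈ S, ∃ q ∈ S, ρ q = (g x)⁻¹ • ρ p := fun x hx p hp => by
    rcases hx.lt_or_eq with hx | rfl
    · obtain ⟨q, h1, h2, h3⟩ := Cert.closed2 hy e (Finset.mem_range.1 (Finset.mem_filter.1 hp).1)
        (Finset.mem_filter.1 hp).2 hx
      exact ⟨q, Finset.mem_filter.2 ⟨Finset.mem_range.2 h1, h2⟩, h3⟩
    · exact ⟨p, hp, by rw [hr, inv_one, one_smul]⟩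
  have cl : ∀ k ∈ Subgroup.closure (g '' Set.Iio r), ∀ p ∈ S, ∃ q ∈ S, ρ q = k • ρ p := by
    intro k hk
    induction hk using Subgroup.closure_induction'' with
    | mem k hk =>
      obtain ⟨x, -, rfl⟩ := hk
      have := c1 _ (hy.le x)
      rwa [hg, inv_inv] at this
    | inv_mem k hk =>
      obtain ⟨x, hx, rfl⟩ := hk
      exact c1 x (le_of_lt hx)
    | one => exact fun p hp => ⟨p, hp, (one_smul _ _).symm⟩
    | mul a b _ _ ha hb =>
      intro p hp
      obtain ⟨q, h1, h2⟩ := hb p hp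
      obtain ⟨s, h3, h4⟩ := ha q h1
      exact ⟨s, h3, by rw [h4, h2, mul_smul]⟩
  have h1 : ∀ k : K, ∃ q : S, ρ q = (k.1 : Γ ⧸ H) := fun k => by
    obtain ⟨q, h1, h2⟩ := cl k (hK k.2) 0 (Finset.mem_filter.2 ⟨Finset.mem_range.2 z1, z2⟩)
    refine ⟨⟨q, h1⟩, ?_⟩
    rw [h2, show ρ 0 = ((1 : Γ) : Γ ⧸ H) from (Cert.ρ_eq _ _ _ _).trans (if_neg (Nat.not_lt_zero _)),
      MulAction.Quotient.smul_mk, smul_eq_mul, mul_one]
  choose f hf using h1
  have := hm.1
  let F : K → S × H := fun k => (f k, ⟨(ρ (f k)).out⁻¹ * k, QuotientGroup.eq.1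
    ((QuotientGroup.out_eq' _).trans (hf k))⟩)
  have hF : Function.Injective F := fun a b e => by
    have e1 : f a = f b := congrArg Prod.fst e
    have e2 : (ρ (f a)).out⁻¹ * a = (ρ (f b)).out⁻¹ * b := congrArg (fun x => x.2.1) e
    rw [e1] at e2
    exact Subtype.ext (mul_left_cancel e2)
  refine ⟨Finite.of_injective F hF, (Nat.card_le_card_of_injective F hF).trans ?_⟩
  rw [Nat.card_prod, Nat.card_eq_finsetCard]
  exact Nat.mul_le_mul z3 hm.2

end group

theorem rows_nil2 {C : Cert} {ι : ℕ → ℕ} {a : ℕ} : ∀ p < a, a ≤ p → C.row2 ι p = true :=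
  fun _ h1 h2 => by omega

/-- gluing of ranges -/
theorem rows_cons2 {C : Cert} {ι : ℕ → ℕ} {a m n : ℕ} (h1 : C.rows2 ι a m = true)
    (h2 : ∀ p < n, a + m ≤ p → C.row2 ι p = true) : ∀ p < n, a ≤ p → C.row2 ι p = true := by
  intro p hp ha
  by_cases h : a + m ≤ p
  · exact h2 p hp h
  · have := allN_iff.1 h1 (p - a) (by omega)
    rwa [frc_eq, show Nat.add a (p - a) = p by change a + (p - a) = p; omega] at this

end CA.TC
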