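import Cfsg.Agent.Lib.TC.Chain

/-!
Checking relators on matrices over `ZMod p`: rows are packed into numbers, no reduction is made
before the end.
-/

set_option autoImplicit false

namespace CA.TC
open CA.Fi Matrix

/-- linear combination -/
noncomputable def dotR (row : List ℕ) : List ℕ → ℕ :=
  List.rec (fun _ => nat_lit 0) (fun c _ rc M => List.casesOn (motive := fun _ => ℕ) M (nat_lit 0)
    fun m M' => @Nat.rec (fun _ => ℕ) (rc M') (fun _ _ => Nat.add (Nat.mul c m) (rc M')) c) row
/-- strict map -/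
noncomputable def mapF {α : Type} (f : α → ℕ) (l : List α) : (List ℕ → Bool) → Bool :=
  List.rec (fun k => k []) (fun a _ rc k => frc (f a) fun x => rc fun xs => k (x :: xs)) l
/-- partial reduction of all lanes -/
noncomputable def redR (k mask x : ℕ) : ℕ :=
  Nat.add (Nat.land x mask) (Nat.shiftRight (Nat.sub x (Nat.land x mask)) k)
/-- rows of the product of a word -/
noncomputable def runW (k mask : ℕ) (A : ℕ → List (List ℕ)) (M0 : List ℕ) (w : List ℕ) :
    (List ℕ → Bool) → Bool :=
  List.rec (fun c => c M0) (fun x _ rc c => rc fun M => mapF (fun row => dotR row M) (A x) fun M1 =>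
    mapF (redR k mask) M1 c) w
/-- the rows are those of the identity modulo `p` -/
noncomputable def isId (p n W : ℕ) (M : List ℕ) : ℕ → Bool :=
  List.rec (fun _ => true) (fun m _ rc i => an (allN (fun j => Nat.beq
    (Nat.mod (Nat.mod (Nat.shiftRight m (Nat.mul W (Nat.add j 2))) (Nat.pow 2 W)) p)
    (cond' (Nat.beq i j) 1 0)) n) (frc (Nat.succ i) rc)) M
/-- the check of a relator; the two lowest lanes only serve to spread the hash values -/
noncomputable def relM (p n k W : ℕ) (A : ℕ → List (List ℕ)) (w : List ℕ) : Bool :=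
  frc (((2 ^ W) ^ (n + 2) - 1) / (2 ^ W - 1) * (2 ^ k - 1)) fun mask =>
    mapF (fun i => (37 * i * i + 11 * i + 5) % 2 ^ k + 2 ^ W * ((i * i * i + 101 * i + 7) % 2 ^ k +
      2 ^ W * (2 ^ W) ^ i)) (List.range n) fun M0 => runW k mask A M0 w fun M => isId p n W M 0

theorem mapF_eq {α : Type} (f : α → ℕ) (l : List α) (k : List ℕ → Bool) : mapF f l k = k (l.map f) := by
  induction l generalizing k with
  | nil => rfl
  | cons a l ih => exact (frc_eq (f a) fun x => mapF f l fun xs => k (x :: xs)).trans (ih _)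

theorem dotR_eq (row M : List ℕ) : dotR row M = ∑ j : Fin M.length, row.getD j 0 * M.getD j 0 := by
  induction row generalizing M with
  | nil => simp [dotR]
  | cons c row ih =>
    cases M with
    | nil => simp [dotR]
    | cons m M =>
      have e : dotR (c :: row) (m :: M) =
        @Nat.rec (fun _ => ℕ) (dotR row M) (fun _ _ => c * m + dotR row M) c := rfl
      rw [e, List.length_cons, Fin.sum_univ_succ, ih]
      cases c <;> simp

/-- the matrix of a list of rows -/
def toM (n : ℕ) (A : List (List ℕ)) : Matrix (Fin n) (Fin n) ℕ := fun i j => (A.getD i []).getD j 0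
/-- packing -/
def pk {n : ℕ} (W : ℕ) (v : Fin n → ℕ) : ℕ := ∑ j, v j * (2 ^ W) ^ j.1

theorem pk_succ {n W : ℕ} (v : Fin (n + 1) → ℕ) : pk W v = v 0 + 2 ^ W * pk W fun j => v j.succ := by
  simp only [pk, Fin.sum_univ_succ, Finset.mul_sum, Fin.val_succ, pow_succ]
  simp [mul_comm, mul_left_comm]

theorem and_pk {W k : ℕ} (hk : k ≤ W) {n : ℕ} (v : Fin n → ℕ) (hv : ∀ j, v j < 2 ^ W) :
    pk W v &&& pk W (fun _ : Fin n => 2 ^ k - 1) = pk W fun j => v j % 2 ^ k := by
  induction n with
  | zero => simp [pk]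
  | succ n ih =>
    have h2 : 2 ^ k - 1 < 2 ^ W := by
      have := Nat.pow_le_pow_right (show 0 < 2 by norm_num) hk
      have := Nat.two_pow_pos k
      omega
    have d : ∀ a b, a < 2 ^ W → (a + 2 ^ W * b) / 2 ^ W = b := fun a b h => by
      rw [Nat.add_mul_div_left _ _ (Nat.two_pow_pos W), Nat.div_eq_of_lt h, zero_add]
    rw [← Nat.mod_add_div (_ &&& _) (2 ^ W), Nat.and_mod_two_pow, Nat.and_div_two_pow, pk_succ v,
      pk_succ (fun _ => 2 ^ k - 1), pk_succ fun j => v j % 2 ^ k, Nat.add_mul_mod_self_left,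
      Nat.add_mul_mod_self_left, d _ _ (hv 0), d _ _ h2, Nat.mod_eq_of_lt (hv 0), Nat.mod_eq_of_lt h2,
      ih _ fun j => hv _, Nat.and_two_pow_sub_one_eq_mod]

theorem redR_pk {W k : ℕ} (hk : k ≤ W) {n : ℕ} (v : Fin n → ℕ) (hv : ∀ j, v j < 2 ^ W) :
    redR k (pk W fun _ : Fin n => 2 ^ k - 1) (pk W v) = pk W fun j => v j % 2 ^ k + v j / 2 ^ k := by
  have e : pk W v = (pk W fun j => v j % 2 ^ k) + 2 ^ k * pk W fun j => v j / 2 ^ k := by
    simp only [pk, Finset.mul_sum, ← Finset.sum_add_distrib, ← mul_assoc, ← add_mul, Nat.mod_add_div]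
  show (pk W v &&& _) + (pk W v - (pk W v &&& _)) >>> k = _
  rw [and_pk hk v hv, Nat.shiftRight_eq_div_pow]
  rw [e, Nat.add_sub_cancel_left, Nat.mul_div_cancel_left _ (Nat.two_pow_pos k)]
  simp only [pk, ← Finset.sum_add_distrib, ← add_mul]

theorem mapF_dot {n N W : ℕ} {A : List (List ℕ)} (hA : A.length = n) (V : Matrix (Fin n) (Fin N) ℕ) :
    (A.map fun row => dotR row (List.ofFn fun i => pk W (V i))) =
      List.ofFn fun i => pk W ((toM n A * V) i) := by
  refine List.ext_getElem (by simp [hA]) fun i h1 h2 => ?_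
  have hi : i < A.length := by simpa using h1
  rw [List.getElem_map, dotR_eq, List.getElem_ofFn,
    ← Fin.sum_congr' _ (List.length_ofFn (f := _)).symm]
  simp only [pk, Matrix.mul_apply, Finset.sum_mul]
  rw [Finset.sum_comm]
  refine Finset.sum_congr rfl fun j _ => ?_
  rw [List.getD_eq_getElem (List.ofFn _) _ (Fin.is_lt _), List.getElem_ofFn, Finset.mul_sum]
  simp [toM, List.getElem?_eq_getElem hi, mul_assoc]
  rfl

theorem runW_spec {p n N k W c B : ℕ} {A : ℕ → List (List ℕ)} (hA : ∀ x, (A x).length = n)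
    (hc : ∀ x i j, toM n (A x) i j ≤ c) (hk : k ≤ W) (hW : n * (c * B) < 2 ^ W)
    (hB : 2 ^ k + n * (c * B) / 2 ^ k ≤ B) (hp : 2 ^ k % p = 1 % p)
    (V0 : Matrix (Fin n) (Fin N) ℕ) (h0 : ∀ i j, V0 i j ≤ B) (w : List ℕ) :
    ∃ V : Matrix (Fin n) (Fin N) ℕ, (∀ i j, V i j ≤ B) ∧ (∀ i j, (V i j : ZMod p) =
      ∑ l, (w.map fun x => (toM n (A x)).map (Nat.cast : ℕ → ZMod p)).prod i l * V0 l j) ∧
      ∀ f, runW k (pk W fun _ : Fin N => 2 ^ k - 1) A (List.ofFn fun i => pk W (V0 i)) w f =
        f (List.ofFn fun i => pk W (V i)) := by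
  induction w with
  | nil => exact ⟨V0, h0, by simp [Matrix.one_apply], fun f => rfl⟩
  | cons x w ih =>
    obtain ⟨V, h1, h2, h3⟩ := ih
    have bd : ∀ i j, (toM n (A x) * V) i j ≤ n * (c * B) := fun i j => by
      rw [Matrix.mul_apply]
      refine (Finset.sum_le_card_nsmul _ _ (c * B) fun l _ => Nat.mul_le_mul (hc x i l) (h1 l j)).trans ?_
      rw [Finset.card_univ, Fintype.card_fin, smul_eq_mul]
    refine ⟨fun i j => (toM n (A x) * V) i j % 2 ^ k + (toM n (A x) * V) i j / 2 ^ k, fun i j => ?_, fun i j => ?_,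
      fun f => (h3 _).trans ((mapF_eq _ _ _).trans ((mapF_eq _ _ _).trans (congrArg f ?_)))⟩
    · exact (Nat.add_le_add (Nat.mod_lt _ (Nat.two_pow_pos k)).le (Nat.div_le_div_right (bd i j))).trans hB
    · have e : ((2 ^ k : ℕ) : ZMod p) = ((1 : ℕ) : ZMod p) := (ZMod.natCast_eq_natCast_iff' _ _ _).2 hp
      have := congrArg (Nat.cast : ℕ → ZMod p) (Nat.mod_add_div ((toM n (A x) * V) i j) (2 ^ k))
      rw [Nat.cast_add, Nat.cast_mul, e, Nat.cast_one, one_mul] at this
      rw [Nat.cast_add, this]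
      simp only [List.map_cons, List.prod_cons, Matrix.mul_apply, Nat.cast_sum, Nat.cast_mul, h2,
        Finset.mul_sum, Finset.sum_mul, Matrix.map_apply, mul_assoc]
      exact Finset.sum_comm
    · rw [mapF_dot (hA x), List.map_ofFn]
      exact congrArg List.ofFn (funext fun i => redR_pk hk _ fun j => (bd i j).trans_lt hW)

theorem lane_pk {n W : ℕ} (v : Fin n → ℕ) (hv : ∀ j, v j < 2 ^ W) (j : Fin n) :
    pk W v >>> (W * j) % 2 ^ W = v j := by
  have h1 := finFunctionFinEquiv_apply fun j => (⟨v j, hv j⟩ : Fin (2 ^ W))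
  have h2 := finFunctionFinEquiv_symm_apply_val
    (finFunctionFinEquiv fun j => (⟨v j, hv j⟩ : Fin (2 ^ W))) j
  rw [Equiv.symm_apply_apply, h1] at h2
  rw [Nat.shiftRight_eq_div_pow, pow_mul]
  exact h2.symm

theorem isId_spec {p n W : ℕ} (M : List ℕ) (i : ℕ) (h : isId p n W M i = true) :
    ∀ a (ha : a < M.length), ∀ j < n, M[a] >>> (W * (j + 2)) % 2 ^ W % p = if i + a = j then 1 else 0 := by
  induction M generalizing i with
  | nil => simp
  | cons m M ih =>
    obtain ⟨h1, h2⟩ := an_iff.1 h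
    rw [frc_eq] at h2
    intro a ha j hj
    cases a with
    | zero =>
      have := beq_iff.1 (allN_iff.1 h1 j hj)
      refine this.trans ?_
      by_cases e : i = j
      · simp [e, cond']
      · simp [e, cond', beq_false_iff.2 e]
    | succ a =>
      have := ih _ h2 a (by simpa using ha) j hj
      rwa [show i.succ + a = i + (a + 1) by omega] at this

theorem relM_spec {p n k W c B : ℕ} {A : ℕ → List (List ℕ)} (hA : ∀ x, (A x).length = n)
    (hc : ∀ x i j, toM n (A x) i j ≤ c) (hk : k ≤ W) (hW : n * (c * B) < 2 ^ W) (hW' : B < 2 ^ W)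
    (hB : 2 ^ k + n * (c * B) / 2 ^ k ≤ B) (hp : 2 ^ k % p = 1 % p) {w : List ℕ}
    (h : relM p n k W A w = true) :
    (w.map fun x => (toM n (A x)).map (Nat.cast : ℕ → ZMod p)).prod = 1 := by
  have k1 := Nat.two_pow_pos k
  have k2 : 2 ^ k ≤ B := le_trans (Nat.le_add_right _ _) hB
  obtain ⟨V, h1, h2, h3⟩ := runW_spec (N := n + 2) hA hc hk hW hB hp (fun i => Fin.cons
    ((37 * i * i + 11 * i + 5) % 2 ^ k) (Fin.cons ((i * i * i + 101 * i + 7) % 2 ^ k)
      ((1 : Matrix (Fin n) (Fin n) ℕ) i))) (fun i j => by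
    refine Fin.cases ((Nat.mod_lt _ k1).le.trans k2) (fun j => Fin.cases ((Nat.mod_lt _ k1).le.trans k2)
      (fun j => ?_) j) j
    simp only [Fin.cons_succ, Matrix.one_apply]
    split_ifs <;> omega) w
  have e1 : ((2 ^ W) ^ (n + 2) - 1) / (2 ^ W - 1) * (2 ^ k - 1) = pk W fun _ : Fin (n + 2) => 2 ^ k - 1 := by
    rw [pk, ← Finset.mul_sum, mul_comm, Fin.sum_univ_eq_sum_range (fun j => (2 ^ W) ^ j),
      Nat.geomSum_eq (by omega)]
  rw [relM, frc_eq, mapF_eq, e1] at h
  replace h := (h3 _).symm.trans (Eq.trans (by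
    congr 1
    refine List.ext_getElem (by simp) fun i h1 h2 => ?_
    rw [List.getElem_ofFn, pk_succ, pk_succ]
    simp [pk, Matrix.one_apply]) h)
  ext i j
  have := isId_spec _ _ h i (by simp) j j.2
  rw [List.getElem_ofFn] at this
  erw [lane_pk (V i) (fun l => (h1 i l).trans_lt hW') j.succ.succ] at this
  have e := h2 i j.succ.succ
  rw [← ZMod.natCast_mod, this] at e
  simp only [Fin.cons_succ, Matrix.one_apply, Nat.cast_ite, Nat.cast_one, Nat.cast_zero,
    mul_ite, mul_one, mul_zero, Finset.sum_ite_eq', Finset.mem_univ, if_true] at e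
  rw [← e, Matrix.one_apply]
  simp [Fin.ext_iff]

open Classical in
/-- an involutory matrix as a unit -/
noncomputable def unitM {n : ℕ} {R : Type*} [CommRing R] (m : Matrix (Fin n) (Fin n) R) : GL (Fin n) R :=
  if h : m * m = 1 then ⟨m, m, h, h⟩ else 1

/-- matrices `L`, followed by identity matrices -/
def matL (n : ℕ) (L : List (List (List ℕ))) (x : ℕ) : List (List ℕ) :=
  L.getD x ((List.range n).map fun i => List.replicate i 0 ++ [1])

theorem fam_of_mat {p n k W c B : ℕ} {L : List (List (List ℕ))} {R : List (List ℕ)}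
    (h1 : (L.all fun A => A.length == n && A.all (·.all (· ≤ c))) = true) (hc : 1 ≤ c)
    (hk : k ≤ W) (hW : n * (c * B) < 2 ^ W) (hW' : B < 2 ^ W)
    (hB' : 2 ^ k + n * (c * B) / 2 ^ k ≤ B) (hp : 2 ^ k % p = 1 % p) (h2 : ∀ x ≤ L.length, relM p n k W (matL n L) [x, x] = true)
    (h3 : relM p n k W (matL n L) [L.length] = true) (h4 : ∀ w ∈ R, relM p n k W (matL n L) w = true) :
    Fam (fun x => unitM ((toM n (matL n L x)).map (Nat.cast : ℕ → ZMod p))) L.length R ∧
      ∀ x, (unitM ((toM n (matL n L x)).map (Nat.cast : ℕ → ZMod p))).1 = (toM n (matL n L x)).map Nat.cast := by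
  simp only [List.all_eq_true, Bool.and_eq_true, beq_iff_eq, decide_eq_true_eq] at h1
  have k1 : ∀ x, matL n L x ∈ L ∨ matL n L x = (List.range n).map fun i => List.replicate i 0 ++ [1] :=
    fun x => by
      rcases lt_or_ge x L.length with h | h
      · exact Or.inl (by rw [matL, List.getD_eq_getElem _ _ h]; exact List.getElem_mem h)
      · exact Or.inr (List.getD_eq_default _ _ h)
  have gd : ∀ {α : Type} (l : List α) (d : α) (i : ℕ), l.getD i d = d ∨ l.getD i d ∈ l := fun l d i => by
    rcases lt_or_ge i l.length with h | h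
    · exact Or.inr (by rw [List.getD_eq_getElem _ _ h]; exact List.getElem_mem h)
    · exact Or.inl (List.getD_eq_default _ _ h)
  have hA : ∀ x, (matL n L x).length = n := fun x => (k1 x).elim (fun h => (h1 _ h).1) fun h => by simp [h]
  have hB : ∀ x i j, toM n (matL n L x) i j ≤ c := fun x i j => by
    rw [toM]
    rcases gd ((matL n L x).getD i []) 0 j with h | h
    · omega
    rcases gd (matL n L x) [] i with h' | h'
    · rw [h'] at h; cases h
    generalize (matL n L x).getD i [] = r at h h'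
    generalize r.getD j 0 = a at h
    rcases k1 x with e | e
    · exact (h1 _ e).2 _ h' _ h
    · rw [e] at h'
      obtain ⟨i, -, rfl⟩ := List.mem_map.1 h'
      simp only [List.mem_append, List.mem_replicate, List.mem_singleton] at h
      omega
  have sq : ∀ x, (toM n (matL n L x)).map (Nat.cast : ℕ → ZMod p) * (toM n (matL n L x)).map Nat.cast = 1 :=
    fun x => by
      rcases le_or_gt x L.length with h | h
      · simpa using relM_spec hA hB hk hW hW' hB' hp (h2 x h)
      · have := relM_spec hA hB hk hW hW' hB' hp (h2 _ le_rfl)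
        rw [matL, List.getD_eq_default _ _ h.le]
        simpa [matL] using this
  have val : ∀ x, (unitM ((toM n (matL n L x)).map (Nat.cast : ℕ → ZMod p))).1 =
      (toM n (matL n L x)).map Nat.cast := fun x => by rw [unitM, dif_pos (sq x)]
  have key : ∀ w, relM p n k W (matL n L) w = true →
      ev (fun x => unitM ((toM n (matL n L x)).map (Nat.cast : ℕ → ZMod p))) w = 1 := fun w h => by
    apply Units.ext
    rw [ev, Units.val_one, ← relM_spec hA hB hk hW hW' hB' hp h]
    have := map_list_prod (Units.coeHom (Matrix (Fin n) (Fin n) (ZMod p)))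
      (w.map fun x => unitM ((toM n (matL n L x)).map (Nat.cast : ℕ → ZMod p)))
    rw [List.map_map] at this
    exact this.trans (congrArg List.prod (List.map_congr_left fun x _ => val x))
  exact ⟨⟨fun x => Units.ext (by rw [Units.val_mul, val, sq]; rfl), by simpa using key _ h3,
    fun w hw => key w (h4 w hw)⟩, val⟩

end CA.TC
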