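import Cfsg.Agent.Lib.TC.SuzM

/-!
The order of the Suzuki group and the normalisers of its Sylow 5- and 7-subgroups.
-/

set_option autoImplicit false

namespace CA.TC
open CA.Fi
theorem Fam.suzRel {Γ : Type*} [Group Γ] {G : ℕ → Γ} {e : ℕ} (h : Fam G e (RJ2 ++ RSuz)) :
    SuzRel (G 0) (G 1) (G 2) (G 3) (G 4) (G 5) (G 6) := by
  have h1 := h.rel
  rw [RJ2, RSuz, show (0 :: pw [3, 2] 4).reverse = pw [2, 3] 4 ++ [0] from rfl,
    show (0 :: pw [6, 5] 2).reverse = pw [5, 6] 2 ++ [0] from rfl] at h1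
  simp only [List.cons_append, List.nil_append, List.forall_mem_cons, ev_pw, ev_append, ev_cons, ev_nil, mul_one,
    ← mul_assoc] at h1
  obtain ⟨a1, a2, a3, a4, a5, a6, a7, a8, a9, a10, a11, a12, b1, b2, b3, b4, b5, b6, b7, b8, b9, b10, b11, b12, b13,
    b14, -⟩ := h1
  exact ⟨⟨h.sq 0, h.sq 1, h.sq 2, h.sq 3, h.sq 4, a1, a2, a3, a4, a5, a6, a7, a8, a9, a10,
    mul_right_cancel ((h.sq 0).trans a11.symm), a12⟩, h.sq 5, h.sq 6, b1, b2, b3, b4, b5, b6, b7, b8, b9, b10, b11,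
    mul_right_cancel ((h.sq 0).trans b12.symm), b13, b14⟩
end CA.TC

namespace CA.SuzM
open Cfsg Cfsg.Spor CA.Fi CA.TC Equiv Subgroup

/-- the generators of `Suz` -/
def gS (i : ℕ) : Suz := [.of .a, .of .b, .of .c, .of .d, .of .e, .of .f, .of .g].getD i 1

theorem exists_mod : ∃ ρ, Mod MS 448345497600 gS ρ := by
  obtain ⟨φ, h0, h1, h2, h3, h4, h5, h6⟩ := (PM.fam c_inv c_R (e := 7) le_rfl).suzRel.hom
  have hm : ∀ i, φ (gS i) = MS.τ i := fun i => by
    match i with
    | 0 => exact h0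
    | 1 => exact h1
    | 2 => exact h2
    | 3 => exact h3
    | 4 => exact h4
    | 5 => exact h5
    | 6 => exact h6
    | i + 7 => exact (map_one φ).trans (PM.fam c_inv c_R (e := i + 7) (Nat.le_add_left 7 i)).one.symm
  obtain ⟨f, hc⟩ := card_Suz_le
  have : Finite φ.range := Finite.of_surjective _ φ.rangeRestrict_surjective
  have h7 := PM.chain_spec c_inv L7 φ.range (fun w _ => ev_mem fun i _ => ⟨_, hm i⟩) c_L7
  rw [← b_L7] at h7
  have h8 := φ.rangeRestrict_surjective.bijective_of_nat_card_le (hc.trans h7)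
  exact ⟨φ, c_inv, Subtype.val_injective.comp h8.1, hm,
    hc.antisymm (h7.trans (Nat.card_le_card_of_surjective _ h8.2))⟩

theorem card_Suz : Nat.card Suz = 448345497600 := exists_mod.choose_spec.card

variable {G : Type*} [Group G] [Finite G] {γ : ℕ → G} {ρ : G →* Perm ℕ} (h : Mod MS 448345497600 γ ρ)
include h

theorem of_eqW {u v : List ℕ} (e : eqW u v = true) : ev γ u = ev γ v := h.ev_eq c_L7 b_L7 e
omit [Finite G] in
theorem eqW_of {u : List ℕ} (e : ev γ u = 1) : eqW u [] = true :=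
  by
  rw [eqW, PM.eqOn, allL_iff]
  exact fun p _ => beq_iff.2 (h.fix_iff.1 (by rw [e, map_one ρ]; rfl) : MS.ap u p = p)
theorem lt_iff (x : G) (p : ℕ) : ρ x p < 1782 ↔ p < 1782 := h.lt_iff c_L7 b_L7 x p
omit [Finite G] in
theorem of_fxs {X : ℕ → Bool} {w S : List ℕ} (e : fxs X w S = true) {p : ℕ} (h1 : p < 1782) (h2 : X p = true)
    (h3 : ρ (ev γ w) p = p) : p ∈ S := by
  have := allN_iff.1 e p h1
  rwa [h2, beq_iff.2 (h.fix_iff.1 h3), cond', cond', decide_eq_true_eq] at this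

theorem hom_W {H : Type*} [Group H] {s : ℕ → H} {v : H → List ℕ} {W : List (List ℕ)} {r : ℕ} (h0 : v 1 = [])
    (c : ∀ x, (ev s (v x) = x ∧ ∀ i ∈ v x, i < r) ∧ (eqW (fl W (v x)) [] = true → x = 1) ∧
      ∀ i < r, eqW (fl W (v (x * s i))) (fl W (v x ++ [i])) = true) :
    ∃ φ : H →* G, Function.Injective φ ∧ ∀ x, φ x = ev γ (fl W (v x)) := by
  obtain ⟨φ, hφ⟩ := hom_of_words s (fun i => ev γ (W.getD i [])) v r h0 (fun x => (c x).1) fun x i hi => by
    rw [ev_flatMap, ev_flatMap]; exact of_eqW h ((c x).2.2 i hi)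
  simp only [ev_flatMap] at hφ
  exact ⟨φ, (injective_iff_map_eq_one φ).2 fun x hx => (c x).2.1 (eqW_of h ((hφ x).symm.trans hx)), hφ⟩

omit h [Finite G] in
theorem fix_conj {n u : G} {p : ℕ} (hp : ρ (n⁻¹ * u * n) p = p) : ρ u (ρ n p) = ρ n p := by
  conv_rhs => rw [← hp]
  simp only [← Perm.mul_apply, ← map_mul, ← mul_assoc, mul_inv_cancel, one_mul]

theorem order_g : orderOf (ev γ wg) = 7 := by
  have : Fact (Nat.Prime 7) := ⟨by norm_num⟩
  refine orderOf_eq_prime ?_ fun e => absurd (eqW_of h e) (by decide +kernel)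
  rw [← ev_pw]; exact of_eqW h (v := []) (by decide +kernel)

theorem main7 (B : Sylow 7 G) (hB : (B : Subgroup G) = zpowers (ev γ wg)) :
    Nonempty (centralizer ((B : Subgroup G) : Set G) ≃* Multiplicative (ZMod 7) × alternatingGroup (Fin 4)) ∧
      Nat.card (normalizer ((B : Subgroup G) : Set G)) = 504 := by
  have : Fact (Nat.Prime 7) := ⟨by norm_num⟩
  set g := ev γ wg with hg
  have og : orderOf g = 7 := order_g h
  set C := centralizer ((B : Subgroup G) : Set G)
  set N := normalizer ((B : Subgroup G) : Set G)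
  have hC : ∀ c, c ∈ C ↔ g * c = c * g := fun c => by
    simp only [C, hB, zpowers_eq_closure, centralizer_closure, mem_centralizer_singleton_iff, eq_comm]
  obtain ⟨φ, hi, hφ⟩ := hom_W h (by decide +kernel) c_7
  have e0 : φ (s7 0) = g := (hφ _).trans (congrArg _ (by decide +kernel))
  have h1 : ∀ x, φ x ∈ C := fun x => by
    rw [hC, ← e0, ← map_mul, ← map_mul]
    exact congrArg φ (Prod.ext (mul_comm _ _) ((one_mul _).trans (mul_one _).symm))
  have c7 : Nat.card H7 = 84 := by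
    rw [Nat.card_prod, Nat.card_eq_fintype_card, Nat.card_eq_fintype_card]; decide +kernel
  have h2 : 84 ≤ Nat.card C := c7 ▸ Nat.card_le_card_of_injective (φ.codRestrict C h1) fun _ _ e =>
    hi (congrArg Subtype.val e)
  have h3 : 6 * Nat.card C ≤ Nat.card N := by
    set n := ev γ wn
    have e1 : n * g * n⁻¹ = g ^ 3 := by
      rw [mul_inv_eq_iff_eq_mul, ← ev_pw, ← ev_append, ← ev_append]; exact of_eqW h (by decide +kernel)
    have e2 : n ∈ N := mem_normalizer_fintype fun u hu => by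
      rw [hB] at hu ⊢
      obtain ⟨k, rfl⟩ := hu
      rw [← conj_zpow, e1]; exact zpow_mem (pow_mem (mem_zpowers g) 3) k
    have e3 : ∀ k : ℕ, ∀ c ∈ C, n ^ k * c * g * (n ^ k * c)⁻¹ = g ^ 3 ^ k := fun k c hc => by
      rw [mul_assoc _ c, ← (hC c).1 hc, mul_inv_rev, ← mul_assoc, ← mul_assoc, mul_inv_cancel_right]
      induction k with
      | zero => simp
      | succ k ih => rw [pow_succ' 3, pow_mul, ← e1, conj_pow, ← ih, pow_succ' n]; group
    rw [← Nat.card_fin 6, ← Nat.card_prod]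
    refine Nat.card_le_card_of_injective (fun x : Fin 6 × C => (⟨n ^ x.1.1 * x.2,
      mul_mem (pow_mem e2 _) (centralizer_le_normalizer _ x.2.2)⟩ : N)) ?_
    rintro ⟨k, c⟩ ⟨k', c'⟩ e
    have e4 : n ^ k.1 * c = n ^ k'.1 * c' := congrArg Subtype.val e
    have e5 := e3 k c c.2
    rw [e4, e3 k' c' c'.2, pow_eq_pow_iff_modEq, og] at e5
    obtain rfl := (by decide : ∀ k k' : Fin 6, 3 ^ k'.1 ≡ 3 ^ k.1 [MOD 7] → k' = k) k k' e5
    rw [Subtype.ext (mul_left_cancel e4)]
  set L := (Fx [0, 995, 237, 634]).comap ρ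
  have gL : ∀ w, allL (fun p => Nat.beq (MS.ap w p) p) [0, 995, 237, 634] = true → ev γ w ∈ L :=
    fun w hw p hp => h.fix_iff.2 (beq_iff.1 (allL_iff.1 hw p hp))
  have BL : (B : Subgroup G) ≤ L := by rw [hB, zpowers_le]; exact gL _ (by decide +kernel)
  have h4 : Nat.card ↥(N ⊓ L) ≤ 21 := by
    have a1 : Nat.card L ≤ 168 := ((h.tight (L1 := [l1, l2, l3, l4]) (L2 := [l5]) c_L7 b_L7).1).trans_eq
      (by decide +kernel)
    have a2 := card_sylow_modEq_one 7 L
    rw [(B.subtype BL).card_eq_index_normalizer] at a2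
    change (normalizer (((B : Subgroup G).subgroupOf L : Subgroup L) : Set L)).index % 7 = 1 at a2
    rw [← subgroupOf_normalizer_eq BL] at a2
    have a3 : (N.subgroupOf L).index ≠ 1 := fun e => by
      have l := gL wl (by decide +kernel)
      have a4 : ev γ wl ∈ N := (index_eq_one.1 e ▸ mem_top (⟨_, l⟩ : L) : (⟨_, l⟩ : L) ∈ N.subgroupOf L)
      have a5 := (mem_normalizer_iff.1 a4 g).1 (hB ▸ mem_zpowers g)
      rw [hB] at a5
      obtain ⟨k, a5⟩ := a5
      refine absurd (eqW_of h (u := wl ++ wg ++ wl.reverse ++ wg ++ (wg ++ (wl ++ wg ++ wl.reverse)).reverse) ?_)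
        (by decide +kernel)
      simp only [ev_append, h.ev_rev, ← hg, ← a5]
      group
    have a4 := (N.subgroupOf L).index_mul_card
    have a5 : 8 ≤ (N.subgroupOf L).index := by
      change (N.subgroupOf L).index % 7 = 1 at a2; omega
    rw [← inf_subgroupOf_right, Nat.card_congr (subgroupOfEquivOfLe inf_le_right).toEquiv, inf_subgroupOf_right] at a4
    nlinarith
  have h5 := card_le_of_fiber N L (fun n => [0, 995, 237, 634].map (ρ n)) [0, 995, 237, 634].permutations'.toFinset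
    (fun n hn => by
      rw [List.mem_toFinset, List.mem_permutations']
      refine (List.subperm_of_subset ((by decide : [0, 995, 237, 634].Nodup).map (ρ n).injective) ?_).perm_of_length_le
        (by simp)
      intro q hq
      obtain ⟨p, hp, rfl⟩ := List.mem_map.1 hq
      refine of_fxs h c_g ((lt_iff h _ _).2 ((by decide : ∀ p ∈ [0, 995, 237, 634], p < 1782) p hp)) rfl (fix_conj (BL ?_ p hp))
      simpa using (mem_normalizer_iff.1 (inv_mem hn) g).1 (hB ▸ mem_zpowers g))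
    (fun n _ m _ e p hp => by
      rw [map_mul, map_inv, Perm.mul_apply, Perm.inv_eq_iff_eq]
      exact (List.map_inj_left.1 e p hp).symm)
  rw [show [0, 995, 237, 634].permutations'.toFinset.card = 24 by decide +kernel] at h5
  refine ⟨⟨(MulEquiv.ofBijective (φ.codRestrict C h1) ((Nat.bijective_iff_injective_and_card _).2
    ⟨fun _ _ e => hi (congrArg Subtype.val e), by omega⟩)).symm⟩, by omega⟩

theorem not_conj (c : G) (k : ℤ) : c * ev γ wx ^ k * c⁻¹ ≠ ev γ wb := fun e => by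
  have a : ∀ p ∈ [0, 995, 543], ρ c p ∈ [0, 995] := fun p hp => by
    have a1 := (by decide +kernel : ∀ p ∈ [0, 995, 543], p < 1782 ∧ MS.ap wx p = p) p hp
    refine of_fxs h c_b ((lt_iff h _ _).2 a1.1) rfl (fix_conj ?_)
    rw [← e, show c⁻¹ * (c * ev γ wx ^ k * c⁻¹) * c = ev γ wx ^ k by group, map_zpow]
    exact Perm.zpow_apply_eq_self_of_apply_eq_self (h.fix_iff.2 a1.2) k
  have i := (ρ c).injective
  have a1 := i.ne (by decide : 0 ≠ 995)
  have a2 := i.ne (by decide : 0 ≠ 543)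
  have a3 := i.ne (by decide : 995 ≠ 543)
  have b1 := a 0 (by simp)
  have b2 := a 995 (by simp)
  have b3 := a 543 (by simp)
  simp only [List.mem_cons, List.not_mem_nil, or_false] at b1 b2 b3
  omega

theorem cent5 {C : Subgroup G} (hx : ∀ c ∈ C, ev γ wx * c = c * ev γ wx) (hy : ∀ c ∈ C, ev γ wy * c = c * ev γ wy)
    (hb : ∀ c ∈ C, ev γ wb * c = c * ev γ wb) : Nat.card C ≤ 72 := by
  have cj : ∀ {u c : G} {p : ℕ}, u * c = c * u → ρ u p = p → ρ u (ρ c p) = ρ c p := fun e hp =>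
    fix_conj (by rwa [mul_assoc, e, inv_mul_cancel_left])
  have fb : ∀ c ∈ C, ∀ p ∈ [0, 995], ρ c p ∈ [0, 995] := fun c hc p hp => by
    have a1 := (by decide +kernel : ∀ p ∈ [0, 995], p < 1782 ∧ MS.ap wb p = p) p hp
    exact of_fxs h c_b ((lt_iff h _ _).2 a1.1) rfl (cj (hb c hc) (h.fix_iff.2 a1.2))
  set K := (Fx [0]).comap ρ
  have h1 := card_le_of_fiber C K (fun c => ρ c 0) [0, 995].toFinset
    (fun c hc => List.mem_toFinset.2 (fb c hc 0 (by simp))) (fun n _ m _ e p hp => by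
      rw [map_mul, map_inv, Perm.mul_apply, Perm.inv_eq_iff_eq, List.mem_singleton.1 hp]; exact e.symm)
  have hX : ∀ c ∈ K, ∀ p, tb XM p = true → tb XM (ρ c p) = true := fun c hc p hp =>
    ((h.tight (L1 := [l1]) (L2 := [l2, m3, m4, m5]) c_L5 b_L5).2 (Stb (tb XM · = true)) (fun w hw => ev_mem fun i hi =>
      PM.τ_mem_Stb c_inv fun p hp => by
        rcases lt_or_ge p 1782 with h1 | h1
        · have := allN_iff.1 (allN_iff.1 c_X i ((by decide +kernel :
            ∀ w ∈ PM.gens [l2, m3, m4, m5], ∀ i ∈ w, i < 6) w hw i hi)) p h1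
          rwa [hp] at this
        · rwa [MS.T_ge (Or.inr h1)]) c hc p).2 hp
  have h2 := card_le_of_fiber (C ⊓ K) ⊥ (fun c => (ρ c 639, ρ c 854))
    ([639, 779, 995, 1115, 1232, 1592].toFinset ×ˢ [854, 871, 995, 1101, 1343, 1459].toFinset)
    (fun c hc => Finset.mem_product.2 ⟨List.mem_toFinset.2 (of_fxs h c_x ((lt_iff h _ _).2 (by norm_num))
      (hX c hc.2 _ (by decide +kernel)) (cj (hx c hc.1) (h.fix_iff.2 (by decide +kernel)))),
      List.mem_toFinset.2 (of_fxs h c_y ((lt_iff h _ _).2 (by norm_num))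
      (hX c hc.2 _ (by decide +kernel)) (cj (hy c hc.1) (h.fix_iff.2 (by decide +kernel))))⟩)
    (fun n hn m hm e => by
      obtain ⟨e1, e2⟩ := Prod.ext_iff.1 e
      have a := mul_mem (inv_mem hn) hm
      have b0 : ρ (n⁻¹ * m) 0 = 0 := a.2 0 (by simp)
      have b1 : ρ (n⁻¹ * m) 995 = 995 := by
        have b1 := fb _ a.1 995 (by simp)
        have b2 := (ρ (n⁻¹ * m)).injective.ne (by decide : 0 ≠ 995)
        simp only [List.mem_cons, List.not_mem_nil, or_false] at b1
        omega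
      have b2 : ρ (n⁻¹ * m) 639 = 639 := by
        rw [map_mul, map_inv, Perm.mul_apply, Perm.inv_eq_iff_eq]; exact e1.symm
      have b3 : ρ (n⁻¹ * m) 854 = 854 := by
        rw [map_mul, map_inv, Perm.mul_apply, Perm.inv_eq_iff_eq]; exact e2.symm
      have b4 : ρ (n⁻¹ * m) 1232 = 1232 := by
        have b4 := h.ap wy 639
        rw [show MS.ap wy 639 = 1232 by decide +kernel] at b4
        refine (ρ (ev γ wy)).injective ?_
        rw [← Perm.mul_apply, ← map_mul, hy _ a.1, map_mul, Perm.mul_apply, b4, b2]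
      refine h.base c_L5 b_L5 fun p hp => ?_
      change p ∈ [0, 995, 639, 854, 1232] at hp
      simp only [List.mem_cons, List.not_mem_nil, or_false] at hp
      rcases hp with rfl | rfl | rfl | rfl | rfl <;> assumption)
  rw [inf_bot_eq, card_bot, show Finset.card _ = 36 by decide +kernel] at h2
  rw [show Finset.card _ = 2 by decide +kernel] at h1
  omega

theorem exists_φ5 : ∃ φ : H5 →* G, Function.Injective φ ∧ (∀ x, φ x = ev γ (fl W5 (v5 x))) ∧
    closure {ev γ wx, ev γ wy} = φ.range ∧ Nat.card φ.range = 25 := by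
  obtain ⟨φ, hi, hφ⟩ := hom_W h (by decide +kernel) c_5
  refine ⟨φ, hi, hφ, le_antisymm ((closure_le _).2 ?_) ?_, ?_⟩
  · rintro _ (rfl | rfl)
    exacts [⟨s5 0, (hφ _).trans (congrArg _ (by decide +kernel))⟩, ⟨s5 1, (hφ _).trans (congrArg _ (by decide +kernel))⟩]
  · rintro _ ⟨x, rfl⟩
    rw [hφ, fl, ← ev_flatMap]
    refine ev_mem fun i hi => subset_closure ?_
    have := (c_5 x).1.2 i hi
    interval_cases i
    exacts [Or.inl rfl, Or.inr rfl]
  · rw [← Nat.card_congr (φ.ofInjective hi).toEquiv, Nat.card_eq_fintype_card]; decide +kernel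

theorem main5 (P : Sylow 5 G) (hP : (P : Subgroup G) = closure {ev γ wx, ev γ wy}) :
    (∃ A B : Subgroup G, Nat.card A = 5 ∧ Nat.card B = 5 ∧ (∀ g : G, A.map (MulAut.conj g).toMonoidHom ≠ B) ∧
      ∀ C : Subgroup G, Nat.card C = 5 → ∃ g : G, C.map (MulAut.conj g).toMonoidHom = A ∨
        C.map (MulAut.conj g).toMonoidHom = B) ∧ Nat.card (P : Subgroup G) = 25 ∧
    Nat.card (normalizer ((P : Subgroup G) : Set G)) = 600 ∧
    Nonempty (normalizer ((P : Subgroup G) : Set G) ⧸ (P : Subgroup G).subgroupOf (normalizer ((P : Subgroup G) : Set G)) ≃*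
      Multiplicative (ZMod 4) × Perm (Fin 3)) := by
  obtain ⟨s1, a5⟩ : (∀ Q : Sylow 5 G, ∃ c : G, c • P = Q) ∧
      (normalizer ((P : Subgroup G) : Set G)).index % 5 = 1 := by
    have : Fact (Nat.Prime 5) := ⟨by norm_num⟩
    have a5 := card_sylow_modEq_one 5 G
    rw [P.card_eq_index_normalizer] at a5
    exact ⟨MulAction.exists_smul_eq G P, a5⟩
  obtain ⟨φ, hi, hφ, hr, hc⟩ := exists_φ5 h
  set x := ev γ wx with hx
  set y := ev γ wy with hy
  set b := ev γ wb with hb
  set N := normalizer ((P : Subgroup G) : Set G)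
  have hP' := hP.trans hr
  have ex : φ (s5 0) = x := (hφ _).trans (congrArg _ (by decide +kernel))
  have ey : φ (s5 1) = y := (hφ _).trans (congrArg _ (by decide +kernel))
  have eb : φ (s5 0 * s5 1 ^ 2) = b := (hφ _).trans (of_eqW h (by decide +kernel))
  have ty : ∀ u, u ≠ 1 → IsConj (φ u) (cond (isA u) x b) := fun u hu => by
    have := of_eqW h (c_ct u hu)
    rw [ev_append, ev_append, ← hφ] at this
    refine isConj_iff.2 ⟨ev γ (c5 u), ?_⟩
    rw [this, mul_inv_cancel_right]; cases isA u <;> rfl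
  have nc : ¬ IsConj x b := fun e => by
    obtain ⟨c, e⟩ := isConj_iff.1 e
    exact not_conj h c 1 (by rwa [zpow_one])
  have ty2 : ∀ u v, u ≠ 1 → IsConj (φ u) (φ v) → v ≠ 1 ∧ isA v = isA u := fun u v hu e => by
    have hv : v ≠ 1 := by
      rintro rfl
      rw [map_one, isConj_one_left] at e
      exact hu (hi (e.trans (map_one φ).symm))
    have := ((ty u hu).symm.trans e).trans (ty v hv)
    refine ⟨hv, ?_⟩
    revert this
    cases isA u <;> cases isA v <;> intro this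
    exacts [rfl, (nc this.symm).elim, (nc this).elim, rfl]
  have o5 : ∀ u, u ≠ 1 → Nat.card (zpowers (φ u)) = 5 := fun u hu => by
    rw [Nat.card_zpowers, orderOf_injective φ hi]
    exact orderOf_eq_prime (hp := ⟨by norm_num⟩) ((by decide +kernel : ∀ u : H5, u ^ 5 = 1) u) hu
  have cP : Nat.card (P : Subgroup G) = 25 := hP' ▸ hc
  refine ⟨⟨zpowers x, zpowers b, ex ▸ o5 _ (by decide +kernel), eb ▸ o5 _ (by decide +kernel), fun g e => ?_,
    fun C hC => ?_⟩, cP, ?_⟩
  · obtain ⟨_, ⟨k, rfl⟩, e⟩ := e ▸ mem_zpowers b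
    exact not_conj h g k e
  · obtain ⟨Q, hQ⟩ := (IsPGroup.of_card (hC.trans (pow_one 5).symm)).exists_le_sylow
    obtain ⟨c, rfl⟩ := s1 Q
    have : Nontrivial C := Finite.one_lt_card_iff_nontrivial.1 (by omega)
    obtain ⟨⟨u, hu⟩, u1⟩ := exists_ne (1 : C)
    replace u1 : u ≠ 1 := fun e => u1 (Subtype.ext e)
    obtain ⟨w, hw, rfl⟩ := hQ hu
    rw [SetLike.mem_coe, hP'] at hw
    obtain ⟨v, rfl⟩ := hw
    have v1 : v ≠ 1 := by rintro rfl; simp at u1
    change c * φ v * c⁻¹ ∈ C at hu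
    have e : zpowers (c * φ v * c⁻¹) = C := eq_of_le_of_card_ge (zpowers_le.2 hu) (by
      rw [hC, Nat.card_zpowers, ← MulAut.conj_apply, MulEquiv.orderOf_eq, ← Nat.card_zpowers, o5 v v1])
    obtain ⟨d, hd⟩ := isConj_iff.1 (ty v v1)
    refine ⟨d * c⁻¹, ?_⟩
    rw [← e, MonoidHom.map_zpowers, show (MulAut.conj (d * c⁻¹)).toMonoidHom (c * φ v * c⁻¹) = d * φ v * d⁻¹ by
      simp [mul_assoc], hd]
    cases isA v
    exacts [Or.inr rfl, Or.inl rfl]
  obtain ⟨ψ, hj, hψ⟩ := hom_W h (by decide +kernel) c_24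
  have a1 : ∀ u, ψ u ∈ N := fun u => by
    rw [hψ, fl, ← ev_flatMap]
    refine ev_mem fun k hk => mem_normalizer_fintype fun n hn => ?_
    have key : ∀ j < 2, ev γ (W24.getD k []) * ev γ (W5.getD j []) * (ev γ (W24.getD k []))⁻¹ ∈ closure {x, y} :=
      fun j hj => by
      obtain ⟨c1, c2⟩ := c_nz k ((c_24 u).1.2 k hk) j hj
      have := of_eqW h c1
      rw [ev_append, ev_append] at this
      rw [this, mul_inv_cancel_right, fl, ← ev_flatMap]
      refine ev_mem fun i hi => subset_closure ?_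
      have := c2 i hi
      interval_cases i
      exacts [Or.inl rfl, Or.inr rfl]
    rw [hP] at hn ⊢
    refine (closure_le ((closure {x, y}).comap (MulAut.conj (ev γ (W24.getD k []))).toMonoidHom)).2 ?_ hn
    rintro _ (rfl | rfl)
    exacts [key 0 (by norm_num), key 1 (by norm_num)]
  let θ := (QuotientGroup.mk' ((P : Subgroup G).subgroupOf N)).comp (ψ.codRestrict N a1)
  have a2 : Function.Injective θ := (injective_iff_map_eq_one θ).2 fun u hu => by
    have a2 : ψ u ∈ (P : Subgroup G) := (QuotientGroup.eq_one_iff (ψ.codRestrict N a1 u)).1 hu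
    have a3 : ψ u ^ 25 = 1 := congrArg Subtype.val (cP ▸ pow_card_eq_one' (x := (⟨_, a2⟩ : (P : Subgroup G))))
    rw [← map_pow, (by decide +kernel : ∀ u : H24, u ^ 25 = u) u] at a3
    exact hj (a3.trans (map_one ψ).symm)
  have c24 : Nat.card H24 = 24 := by rw [Nat.card_eq_fintype_card]; decide +kernel
  have a3 := ((P : Subgroup G).subgroupOf N).card_eq_card_quotient_mul_card_subgroup
  rw [Nat.card_congr (subgroupOfEquivOfLe le_normalizer).toEquiv, cP] at a3
  obtain ⟨k, a4⟩ := c24 ▸ card_dvd_of_injective θ a2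
  have a6 := N.index_mul_card
  rw [h.card] at a6
  set C := centralizer ((P : Subgroup G) : Set G)
  have mP : ∀ u, φ u ∈ (P : Subgroup G) := fun u => hP' ▸ ⟨u, rfl⟩
  have a7 : Nat.card ↥(N ⊓ C) ≤ 72 := cent5 h (fun c hc => hc.2 x (ex ▸ mP _)) (fun c hc => hc.2 y (ey ▸ mP _))
    fun c hc => hc.2 b (eb ▸ mP _)
  classical
  have a8 := card_le_of_fiber N C (fun n => (n * x * n⁻¹, n * y * n⁻¹)) ((Finset.univ.filter fun u : H5 × H5 =>
    (u.1 ≠ 1 ∧ isA u.1 = true) ∧ (u.2 ≠ 1 ∧ isA u.2 = true) ∧ (u.1 * u.2 ≠ 1 ∧ isA (u.1 * u.2) = true) ∧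
      (u.1 * u.2 ^ 2 ≠ 1 ∧ isA (u.1 * u.2 ^ 2) = false)).image fun u => (φ u.1, φ u.2))
    (fun n hn => by
      obtain ⟨u, hu⟩ : n * x * n⁻¹ ∈ φ.range := hP' ▸ (mem_normalizer_iff.1 hn x).1 (ex ▸ mP _)
      obtain ⟨v, hv⟩ : n * y * n⁻¹ ∈ φ.range := hP' ▸ (mem_normalizer_iff.1 hn y).1 (ey ▸ mP _)
      refine Finset.mem_image.2 ⟨(u, v), Finset.mem_filter.2 ⟨Finset.mem_univ _, ty2 (s5 0) _ (by decide +kernel) ?_,
        ty2 (s5 1) _ (by decide +kernel) ?_, ty2 (s5 0 * s5 1) _ (by decide +kernel) ?_,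
        ty2 (s5 0 * s5 1 ^ 2) _ (by decide +kernel) ?_⟩, Prod.ext hu hv⟩ <;>
      refine isConj_iff.2 ⟨n, ?_⟩ <;> simp only [map_mul, map_pow, ex, ey, hu, hv, conj_pow, conj_mul])
    (fun n _ m _ e => by
      obtain ⟨e1, e2⟩ := Prod.ext_iff.1 e
      simp only [C, hP, centralizer_closure]
      rintro _ (rfl | rfl)
      · calc _ = n⁻¹ * (n * x * n⁻¹) * m := by group
          _ = _ := by rw [show n * x * n⁻¹ = _ from e1]; group
      · calc _ = n⁻¹ * (n * y * n⁻¹) * m := by group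
          _ = _ := by rw [show n * y * n⁻¹ = _ from e2]; group)
  have a9 := a8.trans (Nat.mul_le_mul (Finset.card_image_le.trans_eq (show _ = 24 by decide +kernel)) a7)
  obtain rfl : k = 1 := by
    have : k ≤ 2 := by omega
    rw [a3, a4] at a6
    interval_cases k <;> omega
  exact ⟨by rw [a3, a4], ⟨(MulEquiv.ofBijective θ ((Nat.bijective_iff_injective_and_card _).2 ⟨a2, by omega⟩)).symm⟩⟩

omit h in
/-- the conclusion of S5383 for the Suzuki group -/
theorem suz7 (e : G ≃* Suz) (B : Sylow 7 G) :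
    Nonempty (centralizer ((B : Subgroup G) : Set G) ≃* Multiplicative (ZMod 7) × alternatingGroup (Fin 4)) ∧
      Nat.card (normalizer ((B : Subgroup G) : Set G)) = 504 := by
  have : Fact (Nat.Prime 7) := ⟨by norm_num⟩
  obtain ⟨ρ, h⟩ := exists_mod
  replace h := h.equiv e
  obtain ⟨c, rfl⟩ := MulAction.exists_smul_eq G (Sylow.ofCard (p := 7) (zpowers (ev _ wg)) (by
    rw [Nat.card_zpowers, order_g h, h.card]; decide +kernel)) B
  refine main7 (h.conj c) _ ?_
  exact (MonoidHom.map_zpowers _ _).trans (congrArg zpowers (map_ev (MulAut.conj c).toMonoidHom _ _))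

omit h in
/-- the conclusion of S5384 for the Suzuki group -/
theorem suz5 (e : G ≃* Suz) (P : Sylow 5 G) :
    (∃ A B : Subgroup G, Nat.card A = 5 ∧ Nat.card B = 5 ∧ (∀ g : G, A.map (MulAut.conj g).toMonoidHom ≠ B) ∧
      ∀ C : Subgroup G, Nat.card C = 5 → ∃ g : G, C.map (MulAut.conj g).toMonoidHom = A ∨
        C.map (MulAut.conj g).toMonoidHom = B) ∧ Nat.card (P : Subgroup G) = 25 ∧
    Nat.card (normalizer ((P : Subgroup G) : Set G)) = 600 ∧
    Nonempty (normalizer ((P : Subgroup G) : Set G) ⧸ (P : Subgroup G).subgroupOf (normalizer ((P : Subgroup G) : Set G)) ≃*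
      Multiplicative (ZMod 4) × Perm (Fin 3)) := by
  have : Fact (Nat.Prime 5) := ⟨by norm_num⟩
  obtain ⟨ρ, h⟩ := exists_mod
  replace h := h.equiv e
  obtain ⟨φ, -, -, h1, h2⟩ := exists_φ5 h
  obtain ⟨c, rfl⟩ := MulAction.exists_smul_eq G (Sylow.ofCard (p := 5) (closure {ev _ wx, ev _ wy}) (by
    rw [h1, h2, h.card]; decide +kernel)) P
  refine main5 (h.conj c) _ ?_
  refine (MonoidHom.map_closure (MulAut.conj c).toMonoidHom _).trans ?_
  rw [Set.image_pair, map_ev, map_ev]; rfl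

end CA.SuzM
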